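import Cfsg.Agent.Lib.RankTwoAut.Setup

/-!
# A `2`-group with `T/V` elementary abelian and `V` the set of square roots of one has order `< 256`
-/

set_option autoImplicit false
set_option linter.unusedSectionVars false
set_option linter.style.haveILetI false

namespace Cfsg.Agent.Lib.RankTwoAut.Bound

open scoped commutatorElement
open Cfsg.Agent.Lib.RankTwoAut.Setup Cfsg.Agent.Lib.RankTwoAut.Fpf3

variable {T : Type*} [Group T] [Finite T] {α : MulAut T} {z : T}

/-- A subgroup which is large compared to `S · V` is not contained in it. -/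
theorem exists_avoid {G : Type*} [Group G] [Finite G] (C V : Subgroup G) [V.Normal]
    (S : Finset (G ⧸ V)) (h : S.card * Nat.card V < Nat.card C) :
    ∃ c ∈ C, (c : G ⧸ V) ∉ S := by
  classical
  by_contra hcon
  push Not at hcon
  have hmem : ∀ c : C, (((c : G) : G ⧸ V)) ∈ S := fun c => hcon c c.2
  have hV : ∀ c : C, (Quotient.out ((c : G) : G ⧸ V))⁻¹ * (c : G) ∈ V := by
    intro c
    rw [← QuotientGroup.eq]
    exact QuotientGroup.out_eq' _
  let f : C → S × V := fun c => (⟨((c : G) : G ⧸ V), hmem c⟩, ⟨_, hV c⟩)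
  have hf : Function.Injective f := by
    intro c d hcd
    have h1 : ((c : G) : G ⧸ V) = ((d : G) : G ⧸ V) := congrArg (fun p => (p.1 : G ⧸ V)) hcd
    have h2 : (Quotient.out ((c : G) : G ⧸ V))⁻¹ * (c : G)
        = (Quotient.out ((d : G) : G ⧸ V))⁻¹ * (d : G) := congrArg (fun p => (p.2 : G)) hcd
    rw [h1] at h2
    exact Subtype.ext (mul_left_cancel h2)
  have h3 := Nat.card_le_card_of_injective f hf
  rw [Nat.card_prod, Nat.card_eq_fintype_card (α := S), Fintype.card_coe] at h3
  omega

section Main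

variable (hV : IsV α z) (hsq : ∀ x : T, x * x * (x * x) = 1)
  (hcomm : ∀ x y : T, ⁅x, y⁆ * ⁅x, y⁆ = 1)

include hV hsq hcomm

theorem card_lt : Nat.card T < 256 := by
  classical
  by_contra hge
  push Not at hge
  haveI := hV.sub_normal
  have hc : ∀ p q g : T, g * ⁅p, q⁆ = ⁅p, q⁆ * g := fun p q g => hV.central_of_sq (hcomm p q) g
  have h4 : Nat.card hV.sub = 4 := hV.card_sub
  -- an element outside
  obtain ⟨x, hx⟩ : ∃ x : T, x ∉ hV.sub := by
    by_contra hcon
    push Not at hcon
    have h5 : hV.sub = ⊤ := by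
      ext y
      simp [hcon y]
    rw [h5] at h4
    simp only [Subgroup.card_top] at h4
    omega
  have hx' : x * x ≠ 1 := hx
  have hq2 : ∀ y : T ⧸ hV.sub, y * y = 1 := by
    intro y
    induction y using QuotientGroup.induction_on with
    | H y =>
      rw [← QuotientGroup.mk_mul, QuotientGroup.eq_one_iff]
      exact hsq y
  have hqc : ∀ y y' : T ⧸ hV.sub, y * y' = y' * y := by
    intro y y'
    induction y using QuotientGroup.induction_on with
    | H y =>
      induction y' using QuotientGroup.induction_on with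
      | H y' =>
        rw [← QuotientGroup.mk_mul, ← QuotientGroup.mk_mul, QuotientGroup.eq]
        have : (y * y')⁻¹ * (y' * y) = ⁅y'⁻¹, y⁻¹⁆ := by
          rw [commutatorElement_def]; group
        rw [this]
        exact hcomm _ _
  have hq : ∀ u v w : T ⧸ hV.sub, u * v = w → v = w * u := by
    intro u v w h
    rw [← h, hqc u v, mul_assoc, hq2, mul_one]
  -- the homomorphism
  let f : T →* hV.sub :=
    MonoidHom.mk' (fun y => ⟨⁅x, y⁆, hcomm x y⟩) (by
      intro a b
      apply Subtype.ext
      exact comm_mul_right hc x a b)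
  have hC64 : 64 ≤ Nat.card f.ker := by
    have h1 := Subgroup.card_mul_index f.ker
    rw [Subgroup.index_ker] at h1
    have h2 : Nat.card f.range ≤ Nat.card hV.sub := Subgroup.card_le_card_group _
    rw [h4] at h2
    by_contra h3
    push Not at h3
    have h5 : Nat.card f.ker * Nat.card f.range ≤ 63 * 4 := Nat.mul_le_mul (by omega) h2
    omega
  have hcent : ∀ y ∈ f.ker, x * y = y * x := by
    intro y hy
    have h1 : ⁅x, y⁆ = 1 := congrArg Subtype.val (MonoidHom.mem_ker.mp hy)
    exact commutatorElement_eq_one_iff_mul_comm.mp h1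
  -- elements avoiding `V ∪ x V`
  have hnotK : ∀ y ∈ f.ker, (y : T ⧸ hV.sub) ≠ 1 → (y : T ⧸ hV.sub) ≠ (x : T ⧸ hV.sub) →
      y * y ≠ 1 ∧ y * y ≠ x * x := by
    intro y hy h1 h2
    constructor
    · intro h3
      apply h1
      rw [QuotientGroup.eq_one_iff]
      exact h3
    · intro h3
      apply h2
      symm
      rw [QuotientGroup.eq]
      show x⁻¹ * y * (x⁻¹ * y) = 1
      have h5 := hcent y hy
      calc x⁻¹ * y * (x⁻¹ * y) = x⁻¹ * (y * x⁻¹) * y := by group
        _ = x⁻¹ * (x⁻¹ * y) * y := by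
            congr 2
            rw [eq_inv_mul_iff_mul_eq, ← mul_assoc, h5, mul_inv_cancel_right]
        _ = (x * x)⁻¹ * (y * y) := by group
        _ = 1 := by rw [h3]; group
  -- the three involutions
  have hi : IsV α (x * x) := hV.of_sq hx' (hsq x)
  set i := x * x with hidef
  let G : T → Prop := fun v => v = α i ∨ v = α (α i)
  let H : T → Prop := fun v => v = 1 ∨ v = i
  have hGH : ∀ v, v * v = 1 → H v ∨ G v := by
    intro v hv
    rcases hi.all v hv with h | h | h | h
    · exact Or.inl (Or.inl h)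
    · exact Or.inl (Or.inr h)
    · exact Or.inr (Or.inl h)
    · exact Or.inr (Or.inr h)
  have e1 : i * α i = α (α i) := hi.mul_eq
  have e2 : α i * α (α i) = i := by
    have := hi.rot.mul_eq
    rwa [hi.cube] at this
  have e3 : α (α i) * i = α i := by
    have := hi.rot.rot.mul_eq
    rw [hi.cube] at this
    exact this
  have hGG : ∀ u v, G u → G v → H (u * v) := by
    rintro u v (rfl | rfl) (rfl | rfl)
    · left; exact hi.rot.sq
    · right; exact e2
    · right; rw [hi.rot.central (α (α i))]; exact e2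
    · left; exact hi.rot.rot.sq
  have hHG : ∀ u v, H u → G v → G (u * v) := by
    rintro u v (rfl | rfl) (rfl | rfl)
    · left; simp
    · right; simp
    · right; exact e1
    · left; rw [← hi.central (α (α i))]; exact e3
  have hHH : ∀ u v, H u → H v → H (u * v) := by
    rintro u v (rfl | rfl) (rfl | rfl)
    · left; simp
    · right; simp
    · right; simp
    · left; exact hi.sq
  have hdisj : ∀ v, G v → H v → False := by
    rintro v (rfl | rfl) (h | h)
    · exact hi.rot.ne_one h
    · exact hi.ne1 h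
    · exact hi.rot.rot.ne_one h
    · exact hi.ne2 h
  have hGel : ∀ y ∈ f.ker, (y : T ⧸ hV.sub) ≠ 1 → (y : T ⧸ hV.sub) ≠ (x : T ⧸ hV.sub) →
      G (y * y) := by
    intro y hy h1 h2
    obtain ⟨h3, h5⟩ := hnotK y hy h1 h2
    rcases hGH _ (hsq y) with (h | h) | h
    · exact absurd h h3
    · exact absurd h h5
    · exact h
  -- the commutator of two such elements
  have hcommG : ∀ p ∈ f.ker, ∀ r ∈ f.ker, G (p * p) → G (r * r) → G ((p * r) * (p * r)) →
      G ⁅r, p⁆ := by
    intro p _ r _ hp hr hpr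
    rcases hGH _ (hcomm r p) with h | h
    · exfalso
      apply hdisj _ hpr
      rw [sq_mul hc p r]
      exact hHH _ _ (hGG _ _ hp hr) h
    · exact h
  -- the choice
  let qx : T ⧸ hV.sub := (x : T ⧸ hV.sub)
  obtain ⟨a, haC, ha⟩ := exists_avoid f.ker hV.sub ([1, qx] : List (T ⧸ hV.sub)).toFinset (by
    have := List.toFinset_card_le ([1, qx] : List (T ⧸ hV.sub))
    have h5 : ([1, qx] : List (T ⧸ hV.sub)).length = 2 := rfl
    rw [h4]
    omega)
  let qa : T ⧸ hV.sub := (a : T ⧸ hV.sub)
  obtain ⟨b, hbC, hb⟩ := exists_avoid f.ker hV.sub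
      ([1, qx, qa, qx * qa] : List (T ⧸ hV.sub)).toFinset (by
    have := List.toFinset_card_le ([1, qx, qa, qx * qa] : List (T ⧸ hV.sub))
    have h5 : ([1, qx, qa, qx * qa] : List (T ⧸ hV.sub)).length = 4 := rfl
    rw [h4]
    omega)
  let qb : T ⧸ hV.sub := (b : T ⧸ hV.sub)
  obtain ⟨c, hcC, hc'⟩ := exists_avoid f.ker hV.sub
      ([1, qx, qa, qx * qa, qb, qx * qb, qa * qb, qx * qa * qb] : List (T ⧸ hV.sub)).toFinset (by
    have := List.toFinset_card_le
      ([1, qx, qa, qx * qa, qb, qx * qb, qa * qb, qx * qa * qb] : List (T ⧸ hV.sub))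
    have h5 : ([1, qx, qa, qx * qa, qb, qx * qb, qa * qb, qx * qa * qb] :
      List (T ⧸ hV.sub)).length = 8 := rfl
    rw [h4]
    omega)
  let qc : T ⧸ hV.sub := (c : T ⧸ hV.sub)
  simp only [List.mem_toFinset, List.mem_cons, List.not_mem_nil, or_false, not_or] at ha hb hc'
  obtain ⟨ha1, ha2⟩ := ha
  obtain ⟨hb1, hb2, hb3, hb4⟩ := hb
  obtain ⟨hc1, hc2, hc3, hc4, hc5, hc6, hc7, hc8⟩ := hc'
  have hGa : G (a * a) := hGel a haC ha1 ha2
  have hGb : G (b * b) := hGel b hbC hb1 hb2
  have hGc : G (c * c) := hGel c hcC hc1 hc2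
  have hGab : G ((a * b) * (a * b)) := by
    apply hGel _ (f.ker.mul_mem haC hbC)
    · rw [QuotientGroup.mk_mul]
      intro h
      have := hq _ _ _ h
      rw [one_mul] at this
      exact hb3 this
    · rw [QuotientGroup.mk_mul]
      intro h
      exact hb4 (hq _ _ _ h)
  have hGac : G ((a * c) * (a * c)) := by
    apply hGel _ (f.ker.mul_mem haC hcC)
    · rw [QuotientGroup.mk_mul]
      intro h
      have := hq _ _ _ h
      rw [one_mul] at this
      exact hc3 this
    · rw [QuotientGroup.mk_mul]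
      intro h
      exact hc4 (hq _ _ _ h)
  have hGbc : G ((b * c) * (b * c)) := by
    apply hGel _ (f.ker.mul_mem hbC hcC)
    · rw [QuotientGroup.mk_mul]
      intro h
      have := hq _ _ _ h
      rw [one_mul] at this
      exact hc5 this
    · rw [QuotientGroup.mk_mul]
      intro h
      exact hc6 (hq _ _ _ h)
  have hGabc : G ((a * (b * c)) * (a * (b * c))) := by
    apply hGel _ (f.ker.mul_mem haC (f.ker.mul_mem hbC hcC))
    · rw [← mul_assoc, QuotientGroup.mk_mul, QuotientGroup.mk_mul]
      intro h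
      have := hq _ _ _ h
      rw [one_mul] at this
      exact hc7 this
    · rw [← mul_assoc, QuotientGroup.mk_mul, QuotientGroup.mk_mul]
      intro h
      have h6 := hq _ _ _ h
      apply hc8
      rw [h6]
      show qx * (qa * qb) = qx * qa * qb
      rw [mul_assoc]
  have h1 : G ⁅b, a⁆ := hcommG a haC b hbC hGa hGb hGab
  have h2 : G ⁅c, a⁆ := hcommG a haC c hcC hGa hGc hGac
  have h3 : G ⁅b * c, a⁆ := hcommG a haC (b * c) (f.ker.mul_mem hbC hcC) hGa hGbc hGabc
  rw [comm_mul_left hc] at h3
  exact hdisj _ h3 (hGG _ _ h1 h2)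

end Main

end Cfsg.Agent.Lib.RankTwoAut.Bound
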