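import Cfsg.Agent.Lib.RankTwoAut.Setup

/-!
# If `T` is nonabelian, then the centre of `T` is elementary abelian
-/

set_option autoImplicit false
set_option linter.unusedSectionVars false
set_option linter.style.haveILetI false

namespace Cfsg.Agent.Lib.RankTwoAut.Center

open scoped commutatorElement
open Cfsg.Agent.Lib.RankTwoAut.Setup Cfsg.Agent.Lib.RankTwoAut.Fpf3
open Cfsg.Agent.Lib.RankTwoAut.Homo

variable {T : Type*} [Group T] [Finite T] {α : MulAut T} {z : T}

/-- The number of cosets of the image of an endomorphism. -/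
theorem card_quot_range {Z : Type*} [Group Z] [Finite Z] (f : Z →* Z) :
    Nat.card (Z ⧸ f.range) = Nat.card f.ker := by
  have h1 := Subgroup.card_mul_index f.ker
  have h2 := Subgroup.card_mul_index f.range
  rw [Subgroup.index_ker] at h1
  have h3 : Nat.card f.range ≠ 0 := Nat.card_pos.ne'
  have h4 : Nat.card f.range * f.range.index = Nat.card f.range * Nat.card f.ker := by
    rw [h2, ← h1, mul_comm]
  have h5 := Nat.eq_of_mul_eq_mul_left (Nat.pos_of_ne_zero h3) h4
  rw [← h5]
  rfl

theorem center_sq (hT : IsPGroup 2 T) (h3 : ∀ x, α (α (α x)) = x) (hfix : ∀ x, α x = x → x = 1)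
    (hV : IsV α z) (hnon : ∃ a b : T, a * b ≠ b * a) {c : T} (hcc : ∀ g, g * c = c * g) :
    c * c = 1 := by
  classical
  by_contra hc2
  have hc : ∀ p q g : T, g * ⁅p, q⁆ = ⁅p, q⁆ * g := comm_central h3 hfix
  obtain ⟨m, hm1, hm2⟩ := exists_invol hT hc2
  set c₁ := c ^ m with hc₁
  have hc₁c : ∀ g, g * c₁ = c₁ * g := by
    intro g
    exact (Commute.pow_right (hcc g) m).eq
  have hc₁2 : (c * c) ^ m = c₁ * c₁ := by
    rw [hc₁, ← pow_add, ← two_mul, pow_mul, pow_two]
  rw [hc₁2] at hm1 hm2
  have hVv : IsV α (c₁ * c₁) := hV.of_sq hm1 hm2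
  have hαc : ∀ d : T, (∀ g, g * d = d * g) → ∀ g, g * α d = α d * g := by
    intro d hd g
    obtain ⟨g', rfl⟩ := α.surjective g
    rw [← map_mul, ← map_mul, hd]
  have hroot : ∀ w : T, w * w = 1 → ∃ d, (∀ g, g * d = d * g) ∧ w = d * d := by
    intro w hw
    rcases hVv.all w hw with h | h | h | h
    · exact ⟨1, by simp, by simp [h]⟩
    · exact ⟨c₁, hc₁c, h⟩
    · exact ⟨α c₁, hαc _ hc₁c, by rw [h, map_mul]⟩
    · exact ⟨α (α c₁), hαc _ (hαc _ hc₁c), by rw [h, map_mul, map_mul]⟩
  -- the quotient by the centre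
  let Z := Subgroup.center T
  have hZmem : ∀ {x : T}, x ∈ Z ↔ ∀ g, g * x = x * g := Subgroup.mem_center_iff
  let M := T ⧸ Z
  have hMcomm : ∀ a b : M, a * b = b * a := by
    intro a b
    induction a using QuotientGroup.induction_on with
    | H a =>
      induction b using QuotientGroup.induction_on with
      | H b =>
        rw [← QuotientGroup.mk_mul, ← QuotientGroup.mk_mul, QuotientGroup.eq]
        have : (a * b)⁻¹ * (b * a) = ⁅b⁻¹, a⁻¹⁆ := by
          rw [commutatorElement_def]; group
        rw [this]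
        exact hZmem.2 (hc _ _)
  have hMp : IsPGroup 2 M := hT.to_quotient Z
  have hZα : ∀ x ∈ Z, α x ∈ Z := by
    intro x hx
    exact hZmem.2 (hαc x (hZmem.1 hx))
  have hZmap : Z.map α.toMonoidHom = Z := by
    apply le_antisymm
    · rintro _ ⟨x, hx, rfl⟩
      exact hZα x hx
    · intro x hx
      refine ⟨α (α x), hZα _ (hZα _ hx), ?_⟩
      exact h3 x
  let α' : MulAut M := QuotientGroup.congr Z Z α hZmap
  have hα' : ∀ t : T, α' (t : M) = ((α t : T) : M) := fun t => rfl
  have hfix' : ∀ m : M, α' m = m → m = 1 := by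
    intro m hm
    induction m using QuotientGroup.induction_on with
    | H t =>
      rw [hα', QuotientGroup.eq] at hm
      rw [QuotientGroup.eq_one_iff]
      have hm' : t⁻¹ * α t ∈ Z := by
        have h5 := Z.inv_mem hm
        have : (α t)⁻¹ * t = (t⁻¹ * α t)⁻¹ := by group
        rw [this] at hm
        simpa using Z.inv_mem hm
      exact mem_of_fixed_coset hfix hZα hm'
  -- the central squares
  let f : Z →* Z := MonoidHom.mk' (fun e => e * e) (by
    intro a b
    apply Subtype.ext
    show (a : T) * b * (a * b) = a * a * (b * b)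
    have h6 : (b : T) * a = a * b := hZmem.1 a.2 b
    calc (a : T) * b * (a * b) = a * (b * a) * b := by group
      _ = a * (a * b) * b := by rw [h6]
      _ = _ := by group)
  have hker : Nat.card f.ker ≤ 4 := by
    rw [← hV.card_sub]
    apply Nat.card_le_card_of_injective
      (fun e : f.ker => (⟨((e : Z) : T), by
        have h5 : f (e : Z) = 1 := MonoidHom.mem_ker.mp e.2
        exact congrArg Subtype.val h5⟩ : hV.sub))
    intro e e' h
    apply Subtype.ext
    apply Subtype.ext
    exact congrArg (fun p : hV.sub => (p : T)) h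
  have hcardQ : Nat.card (Z ⧸ f.range) ≤ 4 := by
    rw [card_quot_range]
    exact hker
  have hsqZ : ∀ m : M, m * m = 1 → (Quotient.out m) * (Quotient.out m) ∈ Z := by
    intro m hm
    rw [← QuotientGroup.eq_one_iff, QuotientGroup.mk_mul]
    have : ((Quotient.out m : T) : M) = m := QuotientGroup.out_eq' m
    rw [this, hm]
  have h4' : Nat.card {m : M // m * m = 1} ≤ 4 := by
    refine le_trans (Nat.card_le_card_of_injective
      (fun m : {m : M // m * m = 1} =>
        (((⟨_, hsqZ m.1 m.2⟩ : Z) : Z ⧸ f.range))) ?_) hcardQ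
    intro m m' hmm
    apply Subtype.ext
    set t := Quotient.out m.1 with ht
    set t' := Quotient.out m'.1 with ht'
    have htm : ((t : T) : M) = m.1 := QuotientGroup.out_eq' m.1
    have htm' : ((t' : T) : M) = m'.1 := QuotientGroup.out_eq' m'.1
    rw [← htm, ← htm']
    have h5 := QuotientGroup.eq.mp hmm
    obtain ⟨f₀, hf₀⟩ := h5
    have hf₁ : ((f₀ : Z) : T) * ((f₀ : Z) : T) = (t * t)⁻¹ * (t' * t') := by
      have := congrArg Subtype.val hf₀
      simpa [f] using this
    set e : T := ((f₀ : Z) : T) with he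
    have hec : ∀ g, g * e = e * g := hZmem.1 f₀.2
    have htt : ∀ g, g * (t' * t') = (t' * t') * g := hZmem.1 (hsqZ m'.1 m'.2)
    -- `s = t e` has the same square as `t'`
    set s := t * e with hs
    have hss : s * s = t' * t' := by
      calc s * s = t * (e * t) * e := by rw [hs]; group
        _ = t * (t * e) * e := by rw [hec t]
        _ = (t * t) * (e * e) := by group
        _ = t' * t' := by rw [hf₁]; group
    have hsi : s⁻¹ * s⁻¹ = (t' * t')⁻¹ := by
      rw [← hss]; group
    have hw : (t' * s⁻¹) * (t' * s⁻¹) = ⁅s⁻¹, t'⁆ := by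
      rw [sq_mul hc, hsi]; group
    have hw2 : ⁅s⁻¹, t'⁆ * ⁅s⁻¹, t'⁆ = 1 := by
      rw [← comm_sq hc, commutatorElement_eq_one_iff_mul_comm, hsi]
      have h6 : t' * (t' * t')⁻¹ = (t' * t')⁻¹ * t' := by group
      exact h6.symm
    obtain ⟨d, hd1, hd2⟩ := hroot _ hw2
    have hv : (t' * s⁻¹ * d⁻¹) * (t' * s⁻¹ * d⁻¹) = 1 := by
      have hdi : ∀ g, g * d⁻¹ = d⁻¹ * g := by
        intro g
        calc g * d⁻¹ = d⁻¹ * (d * g) * d⁻¹ := by group
          _ = d⁻¹ * (g * d) * d⁻¹ := by rw [hd1 g]
          _ = d⁻¹ * g := by group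
      calc (t' * s⁻¹ * d⁻¹) * (t' * s⁻¹ * d⁻¹) = (t' * s⁻¹) * (d⁻¹ * (t' * s⁻¹)) * d⁻¹ := by group
        _ = (t' * s⁻¹) * ((t' * s⁻¹) * d⁻¹) * d⁻¹ := by rw [hdi (t' * s⁻¹)]
        _ = ((t' * s⁻¹) * (t' * s⁻¹)) * (d * d)⁻¹ := by group
        _ = 1 := by rw [hw, hd2]; group
    set v := t' * s⁻¹ * d⁻¹ with hvdef
    have hvc : ∀ g, g * v = v * g := hV.central_of_sq hv
    have ht2 : t' = v * d * s := by rw [hvdef]; group
    rw [QuotientGroup.eq]
    apply hZmem.2
    have h7 : t⁻¹ * t' = v * d * e := by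
      rw [ht2, hs]
      have h8 : v * d * (t * e) = t * (v * d * e) := by
        calc v * d * (t * e) = v * (d * t) * e := by group
          _ = v * (t * d) * e := by rw [hd1 t]
          _ = (v * t) * d * e := by group
          _ = (t * v) * d * e := by rw [hvc t]
          _ = _ := by group
      rw [h8]
      group
    rw [h7]
    intro g
    calc g * (v * d * e) = (g * v) * d * e := by group
      _ = v * (g * d) * e := by rw [hvc g]; group
      _ = v * d * (g * e) := by rw [hd1 g]; group
      _ = v * d * e * g := by rw [hec g]; group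
  -- the homocyclic quotient
  obtain ⟨ū, hmax⟩ := Finite.exists_max (fun x : M => orderOf x)
  obtain ⟨u, rfl⟩ := QuotientGroup.mk_surjective ū
  have hgen := fun x : M => gen hMp hMcomm α' hfix' h4' hmax x
  have hform : ∀ x : T, ∃ i j : ℕ, ∃ e : T, (∀ g, g * e = e * g) ∧ x = u ^ i * (α u) ^ j * e := by
    intro x
    obtain ⟨i, j, hij⟩ := hgen (x : M)
    refine ⟨i, j, (u ^ i * (α u) ^ j)⁻¹ * x, ?_, by group⟩
    rw [hα'] at hij
    apply hZmem.1
    rw [← QuotientGroup.eq]
    rw [hij]
    rfl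
  have hself : Commute u (α u) := self_comm h3 hfix u
  obtain ⟨a, b, hab⟩ := hnon
  apply hab
  obtain ⟨i, j, e, he, rfl⟩ := hform a
  obtain ⟨k, l, e', he', rfl⟩ := hform b
  have hC1 : Commute (u ^ i * (α u) ^ j) (u ^ k * (α u) ^ l) := by
    apply Commute.mul_left
    · apply Commute.mul_right
      · exact (Commute.refl u).pow_pow _ _
      · exact hself.pow_pow _ _
    · apply Commute.mul_right
      · exact hself.symm.pow_pow _ _
      · exact (Commute.refl (α u)).pow_pow _ _
  have hC2 : Commute (u ^ i * (α u) ^ j * e) (u ^ k * (α u) ^ l * e') := by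
    apply Commute.mul_left
    · apply Commute.mul_right hC1
      exact he' _
    · exact (he _).symm
  exact hC2.eq

end Cfsg.Agent.Lib.RankTwoAut.Center
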