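import Cfsg.Agent.Lib.RankTwoAut.Bound
import Cfsg.Agent.Lib.ExtraAut.Basic
import Cfsg.Agent.Lib.PGroup.FrattiniBasis

/-!
# A fixed-point-free `3`-automorphism of a `2`-group with three involutions has order three
-/

set_option autoImplicit false
set_option linter.unusedSectionVars false
set_option linter.style.haveILetI false

namespace Cfsg.Agent.Lib.RankTwoAut.Cube

open scoped commutatorElement
open Cfsg.Agent.Lib.RankTwoAut.Setup Cfsg.Agent.Lib.RankTwoAut.Fpf3
open Cfsg.Agent.Lib.RankTwoAut.Bound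

universe u

/-- The orbits of a `3`-element which moves all points under its cube have size divisible by `9`. -/
theorem perm_nine {Y : Type*} [Finite Y] (σ : Equiv.Perm Y) {b : ℕ} (hσ : σ ^ 3 ^ b = 1)
    (h3 : ∀ y, (σ ^ 3) y ≠ y) : 9 ∣ Nat.card Y := by
  classical
  haveI := Fintype.ofFinite Y
  have hcube : ∀ y, (σ ^ 3) y = σ (σ (σ y)) := fun y => by simp [pow_succ]
  have hsupp : σ.support = Finset.univ := by
    ext y
    simp only [Equiv.Perm.mem_support, Finset.mem_univ, iff_true]
    intro hy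
    apply h3 y
    rw [hcube, hy, hy, hy]
  have hsum := Equiv.Perm.sum_cycleType σ
  rw [hsupp, Finset.card_univ] at hsum
  rw [Nat.card_eq_fintype_card, ← hsum]
  apply Multiset.dvd_sum
  intro n hn
  have hn2 := Equiv.Perm.two_le_of_mem_cycleType hn
  have hdvd : n ∣ orderOf σ := by
    exact Equiv.Perm.dvd_of_mem_cycleType hn
  have hdvd2 : n ∣ 3 ^ b := hdvd.trans (orderOf_dvd_of_pow_eq_one hσ)
  obtain ⟨k, -, rfl⟩ := (Nat.dvd_prime_pow Nat.prime_three).mp hdvd2
  match k, hn, hn2 with
  | 0, _, hn2 => norm_num at hn2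
  | 1, hn, _ =>
    exfalso
    rw [Equiv.Perm.cycleType_def] at hn
    simp only [Multiset.mem_map, Function.comp] at hn
    obtain ⟨c, hc, hcard⟩ := hn
    have hc' : c ∈ σ.cycleFactorsFinset := hc
    obtain ⟨hcyc, hagree⟩ := Equiv.Perm.mem_cycleFactorsFinset_iff.mp hc'
    have hord : orderOf c = 3 := by rw [hcyc.orderOf, hcard]; norm_num
    have hne : c.support.Nonempty := by
      rw [← Finset.card_pos, hcard]; norm_num
    obtain ⟨a, ha⟩ := hne
    have hc3 : c ^ 3 = 1 := by rw [← hord, pow_orderOf_eq_one]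
    have h1 : σ a = c a := (hagree a ha).symm
    have ha1 : c a ∈ c.support := Equiv.Perm.apply_mem_support.mpr ha
    have h2 : σ (c a) = c (c a) := (hagree _ ha1).symm
    have ha2 : c (c a) ∈ c.support := Equiv.Perm.apply_mem_support.mpr ha1
    have h4 : σ (c (c a)) = c (c (c a)) := (hagree _ ha2).symm
    apply h3 a
    rw [hcube, h1, h2, h4]
    have h5 : (c ^ 3) a = a := by rw [hc3]; rfl
    have h6 : (c ^ 3) a = c (c (c a)) := by simp [pow_succ]
    rw [← h6, h5]
  | (k + 2), _, _ =>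
    exact ⟨3 ^ k, by rw [pow_add, mul_comm]; norm_num⟩

section Step

variable {T : Type*} [Group T] [Finite T] (hT : IsPGroup 2 T) (α : MulAut T) {b : ℕ}
  (hα : α ^ 3 ^ b = 1) (hfix : ∀ x, α x = x → x = 1) (h4 : Nat.card {x : T // x * x = 1} ≤ 4)
  (hIH : ∀ M : Subgroup T, M ≠ ⊤ → (∀ x ∈ M, α x ∈ M) → ∀ x ∈ M, α (α (α x)) = x)

include hT hα hfix h4 hIH

theorem step : ∀ x, α (α (α x)) = x := by
  classical
  by_contra hne
  push Not at hne
  haveI : Nontrivial T := by
    obtain ⟨x, hx⟩ := hne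
    refine ⟨⟨x, 1, ?_⟩⟩
    rintro rfl
    exact hx (by simp)
  obtain ⟨z, hV⟩ := exists_z hT α hα hfix h4
  set β : MulAut T := α ^ 3 with hβdef
  have hβ : ∀ x, β x = α (α (α x)) := fun x => by simp [hβdef, pow_succ]
  have hβ1 : β ^ 3 ^ b = 1 := by
    rw [hβdef, ← pow_mul, mul_comm, pow_mul, hα, one_pow]
  have hαβ : ∀ x, α (β x) = β (α x) := fun x => by rw [hβ, hβ]
  haveI : Fact (Nat.Prime 2) := ⟨Nat.prime_two⟩
  -- the Frattini subgroup
  have hΦα : ∀ x ∈ frattini T, α x ∈ frattini T := by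
    intro x hx
    have h1 := (Subgroup.characteristic_iff_comap_eq.mp
      (inferInstance : (frattini T).Characteristic)) α.symm
    rw [← h1]
    simpa [Subgroup.mem_comap] using hx
  have hΦne : frattini T ≠ ⊤ := by
    intro h
    obtain hb | ⟨M, hM, -⟩ := eq_top_or_exists_le_coatom (⊥ : Subgroup T)
    · exact bot_ne_top hb
    · have h1 : frattini T ≤ M := frattini_le_coatom hM
      rw [h] at h1
      exact hM.1 (top_le_iff.mp h1)
  have hΦ : ∀ x ∈ frattini T, β x = x := fun x hx => by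
    rw [hβ]; exact hIH _ hΦne hΦα x hx
  have hsqΦ : ∀ x : T, x * x ∈ frattini T := by
    intro x
    have := Cfsg.Agent.Lib.PGroup.FrattiniBasis.pow_mem_frattini hT x
    rwa [pow_two] at this
  have hcommΦ : ∀ x y : T, ⁅x, y⁆ ∈ frattini T := by
    intro x y
    apply Cfsg.Agent.Lib.PGroup.FrattiniBasis.commutator_le_frattini hT
    exact Subgroup.commutator_mem_commutator (Subgroup.mem_top _) (Subgroup.mem_top _)
  -- the twist subgroup
  let R : Subgroup T := Subgroup.closure (Set.range fun x : T => x⁻¹ * β x)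
  have hRα : ∀ x ∈ R, α x ∈ R := by
    intro x hx
    induction hx using Subgroup.closure_induction with
    | mem x hx =>
      obtain ⟨y, rfl⟩ := hx
      apply Subgroup.subset_closure
      refine ⟨α y, ?_⟩
      simp only [map_mul, map_inv, hαβ]
    | one => simp
    | mul x y _ _ hx hy => rw [map_mul]; exact R.mul_mem hx hy
    | inv x _ hx => rw [map_inv]; exact R.inv_mem hx
  have hRtop : R = ⊤ := by
    by_contra hR
    have hRβ := hIH R hR hRα
    obtain ⟨x, hx⟩ := hne
    apply hx
    rw [← hβ]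
    obtain ⟨k, hk⟩ := (IsPGroup.iff_orderOf.mp hT) (x⁻¹ * β x)
    refine Cfsg.Agent.Lib.ExtraAut.Basic.fix_of_coset hβ1 (Odd.pow (by decide)) (k := k) ?_ ?_
    · rw [hβ]
      exact hRβ _ (Subgroup.subset_closure ⟨x, rfl⟩)
    · rw [← hk, pow_orderOf_eq_one]
  -- the fixed points are central
  have hcent : ∀ c, β c = c → ∀ g, g * c = c * g := by
    intro c hc g
    have hg : g ∈ R := by rw [hRtop]; exact Subgroup.mem_top _
    induction hg using Subgroup.closure_induction with
    | mem g hg =>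
      obtain ⟨y, rfl⟩ := hg
      have h1 : β ⁅y, c⁆ = ⁅y, c⁆ := hΦ _ (hcommΦ y c)
      rw [commutatorElement_def, map_mul, map_mul, map_mul, map_inv, map_inv, hc] at h1
      have h2 : β y * c * (β y)⁻¹ = y * c * y⁻¹ := mul_right_cancel h1
      calc y⁻¹ * β y * c = y⁻¹ * (β y * c * (β y)⁻¹) * β y := by group
        _ = y⁻¹ * (y * c * y⁻¹) * β y := by rw [h2]
        _ = c * (y⁻¹ * β y) := by group
    | one => simp
    | mul x y _ _ hx hy =>
      calc x * y * c = x * (y * c) := by group
        _ = x * (c * y) := by rw [hy]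
        _ = (x * c) * y := by group
        _ = (c * x) * y := by rw [hx]
        _ = c * (x * y) := by group
    | inv x _ hx =>
      calc x⁻¹ * c = x⁻¹ * (c * x) * x⁻¹ := by group
        _ = x⁻¹ * (x * c) * x⁻¹ := by rw [hx]
        _ = c * x⁻¹ := by group
  have hsqc : ∀ x g : T, g * (x * x) = (x * x) * g := fun x g => hcent _ (hΦ _ (hsqΦ x)) g
  have hc : ∀ p q g : T, g * ⁅p, q⁆ = ⁅p, q⁆ * g := fun p q g => hcent _ (hΦ _ (hcommΦ p q)) g
  have hcomm2 : ∀ x y : T, ⁅x, y⁆ * ⁅x, y⁆ = 1 := by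
    intro x y
    rw [← comm_sq hc, commutatorElement_eq_one_iff_mul_comm]
    exact (hsqc x y).symm
  -- the twists have order dividing four
  have htwist : ∀ x : T, (x⁻¹ * β x) * (x⁻¹ * β x) * ((x⁻¹ * β x) * (x⁻¹ * β x)) = 1 := by
    intro x
    set y := x⁻¹ * β x with hy
    have h1 : x * y = β x := by rw [hy]; group
    have h2 : x * y * (x * y) = x * x := by
      rw [h1, ← map_mul]
      exact hΦ _ (hsqΦ x)
    rw [sq_mul hc] at h2
    have h3 : y * y * ⁅y, x⁆ = 1 := by
      have h5 : x * x * (y * y * ⁅y, x⁆) = x * x := by rw [← mul_assoc]; exact h2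
      exact mul_left_cancel (a := x * x) (by rw [h5, mul_one])
    have h5 : y * y = ⁅y, x⁆ := by
      have h6 : y * y = ⁅y, x⁆⁻¹ := eq_inv_of_mul_eq_one_left h3
      rw [h6]
      exact inv_eq_of_mul_eq_one_left (hcomm2 y x)
    rw [h5]
    exact hcomm2 y x
  -- the main property
  have hmain : ∀ g : T, ∃ c, β c = c ∧ ((g * g) * (c * c)) * ((g * g) * (c * c)) = 1 := by
    intro g
    have hg : g ∈ R := by rw [hRtop]; exact Subgroup.mem_top _
    induction hg using Subgroup.closure_induction with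
    | mem g hg =>
      obtain ⟨y, rfl⟩ := hg
      exact ⟨1, map_one _, by simpa using htwist y⟩
    | one => exact ⟨1, map_one _, by simp⟩
    | mul x y _ _ hx hy =>
      obtain ⟨c, hc1, hc2⟩ := hx
      obtain ⟨d, hd1, hd2⟩ := hy
      refine ⟨c * d, by rw [map_mul, hc1, hd1], ?_⟩
      have e1 : (c * d) * (c * d) = (c * c) * (d * d) := by
        calc (c * d) * (c * d) = c * (d * c) * d := by group
          _ = c * (c * d) * d := by rw [hcent c hc1 d]
          _ = _ := by group
      have e2 : (x * y) * (x * y) * ((c * d) * (c * d))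
          = ((x * x) * (c * c)) * ((y * y) * (d * d)) * ⁅y, x⁆ := by
        rw [sq_mul hc, e1]
        calc x * x * (y * y) * ⁅y, x⁆ * (c * c * (d * d))
            = x * x * (y * y) * (⁅y, x⁆ * (c * c)) * (d * d) := by group
          _ = x * x * (y * y) * ((c * c) * ⁅y, x⁆) * (d * d) := by rw [hc y x (c * c)]
          _ = x * x * ((y * y) * (c * c)) * ⁅y, x⁆ * (d * d) := by group
          _ = x * x * ((c * c) * (y * y)) * ⁅y, x⁆ * (d * d) := by rw [hsqc y (c * c)]
          _ = x * x * (c * c) * (y * y) * (⁅y, x⁆ * (d * d)) := by group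
          _ = x * x * (c * c) * (y * y) * ((d * d) * ⁅y, x⁆) := by rw [hc y x (d * d)]
          _ = _ := by group
      rw [e2]
      exact hV.mul_of_sq (hV.mul_of_sq hc2 hd2) (hcomm2 y x)
    | inv x _ hx =>
      obtain ⟨c, hc1, hc2⟩ := hx
      refine ⟨c⁻¹, by rw [map_inv, hc1], ?_⟩
      have e1 : x⁻¹ * x⁻¹ * (c⁻¹ * c⁻¹) = ((x * x) * (c * c))⁻¹ := by
        rw [mul_inv_rev, mul_inv_rev, mul_inv_rev]
        have h2 : c⁻¹ * c⁻¹ * (x⁻¹ * x⁻¹) = x⁻¹ * x⁻¹ * (c⁻¹ * c⁻¹) := by
          have h3 : ∀ g : T, g * (c⁻¹ * c⁻¹) = (c⁻¹ * c⁻¹) * g :=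
            fun g => hsqc c⁻¹ g
          exact (h3 _).symm
        exact h2.symm
      rw [e1, ← mul_inv_rev, hc2, inv_one]
  -- the fixed points contain the involutions
  have hVC : ∀ x : T, x * x = 1 → β x = x := fun x hx => by
    rw [hβ]; exact hV.map3_of_sq hx
  by_cases hCA : ∃ c, β c = c ∧ c * c ≠ 1
  · -- `C` contains an element of order four
    exfalso
    obtain ⟨c, hc1, hc2⟩ := hCA
    obtain ⟨m, hm1, hm2⟩ := exists_invol hT hc2
    set c₁ := c ^ m with hc₁
    have hc₁β : β c₁ = c₁ := by rw [hc₁, map_pow, hc1]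
    have hc₁2 : (c * c) ^ m = c₁ * c₁ := by
      rw [hc₁, ← pow_add, ← two_mul, pow_mul, pow_two]
    rw [hc₁2] at hm1 hm2
    have hVv : IsV α (c₁ * c₁) := hV.of_sq hm1 hm2
    have hroot : ∀ w : T, w * w = 1 → ∃ d, β d = d ∧ w = d * d := by
      intro w hw
      rcases hVv.all w hw with h | h | h | h
      · exact ⟨1, map_one _, by simp [h]⟩
      · exact ⟨c₁, hc₁β, h⟩
      · exact ⟨α c₁, by rw [← hαβ, hc₁β], by rw [h, map_mul]⟩
      · exact ⟨α (α c₁), by rw [← hαβ, ← hαβ, hc₁β], by rw [h, map_mul, map_mul]⟩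
    obtain ⟨x, hx⟩ := hne
    apply hx
    rw [← hβ]
    obtain ⟨e, he1, he2⟩ := hmain x
    obtain ⟨d, hd1, hd2⟩ := hroot _ he2
    set t := d * e⁻¹ with ht
    have htβ : β t = t := by rw [ht, map_mul, map_inv, hd1, he1]
    have htc := hcent t htβ
    have ht2 : t * t = x * x := by
      have hde : e⁻¹ * d = d * e⁻¹ := (hcent d hd1 e⁻¹)
      have h1 : t * t = (d * d) * (e * e)⁻¹ := by
        rw [ht]
        calc d * e⁻¹ * (d * e⁻¹) = d * (e⁻¹ * d) * e⁻¹ := by group
          _ = d * (d * e⁻¹) * e⁻¹ := by rw [hde]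
          _ = _ := by group
      rw [h1, ← hd2]
      group
    have h1 : (x * t⁻¹) * (x * t⁻¹) = 1 := by
      calc (x * t⁻¹) * (x * t⁻¹) = x * (t⁻¹ * x) * t⁻¹ := by group
        _ = x * (x * t⁻¹) * t⁻¹ := by
            congr 2
            rw [inv_mul_eq_iff_eq_mul, ← mul_assoc, ← htc x, mul_inv_cancel_right]
        _ = (x * x) * (t * t)⁻¹ := by group
        _ = 1 := by rw [ht2]; group
    have h2 := hVC _ h1
    rw [map_mul, map_inv, htβ] at h2
    exact mul_right_cancel h2
  · -- `C` is elementary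
    push Not at hCA
    have hsq : ∀ x : T, x * x * (x * x) = 1 := fun x => hCA _ (hΦ _ (hsqΦ x))
    have hlt := card_lt hV hsq hcomm2
    have hmod := card_mod3 hα hfix
    have hcases := card_cases hT hmod hlt
    -- the complement
    let Y := {x : T // ¬ (x * x = 1)}
    haveI : Fintype T := Fintype.ofFinite T
    have hcardY : Nat.card Y = Nat.card T - 4 := by
      have h1 : Nat.card {x : T // x * x = 1} = 4 := hV.card_sub
      simp only [Nat.card_eq_fintype_card] at h1 ⊢
      rw [Fintype.card_subtype_compl, h1]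
    let σ : Equiv.Perm Y := (α.toEquiv).subtypeEquiv (by
      intro x
      have : α.toEquiv x = α x := rfl
      rw [this, ← map_mul]
      exact not_congr (map_eq_one_iff α α.injective).symm)
    have hσ : ∀ (n : ℕ) (y : Y), (((σ ^ n) y : Y) : T) = (α ^ n) (y : T) := by
      intro n
      induction n with
      | zero => intro y; rfl
      | succ n ih =>
        intro y
        rw [pow_succ, pow_succ, Equiv.Perm.mul_apply, MulAut.mul_apply, ih]
        rfl
    have h9 : 9 ∣ Nat.card Y := by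
      apply perm_nine σ (b := b)
      · ext y
        rw [hσ, hα]
        rfl
      · intro y hy
        have h1 := congrArg (Subtype.val) hy
        rw [hσ] at h1
        exact y.2 (hCA _ h1)
    obtain ⟨x, hx⟩ := hne
    have hx2 : x * x ≠ 1 := fun h => hx (by rw [← hβ]; exact hVC x h)
    have h16 : 4 < Nat.card T := by
      have h1 : Nat.card hV.sub ≤ Nat.card T := Subgroup.card_le_card_group _
      have h2 : Nat.card hV.sub ≠ Nat.card T := by
        intro h2
        have h3 := Subgroup.eq_top_of_card_eq _ h2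
        have h5 : x ∈ hV.sub := by rw [h3]; exact Subgroup.mem_top _
        exact hx2 h5
      have h3 : Nat.card hV.sub < Nat.card T := lt_of_le_of_ne h1 h2
      rwa [hV.card_sub] at h3
    rw [hcardY] at h9
    rcases hcases with h | h | h | h <;> rw [h] at h9 h16 <;> omega

end Step

/-- The induction. -/
theorem cube_aux : ∀ (n : ℕ) (T : Type u) [Group T] [Finite T], Nat.card T = n → IsPGroup 2 T →
    ∀ (α : MulAut T) (b : ℕ), α ^ 3 ^ b = 1 → (∀ x, α x = x → x = 1) →
      Nat.card {x : T // x * x = 1} ≤ 4 → ∀ x, α (α (α x)) = x := by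
  intro n
  induction n using Nat.strong_induction_on with
  | _ n IH =>
    intro T _ _ hn hT α b hα hfix h4
    refine step hT α hα hfix h4 ?_
    intro M hM hMα x hx
    have hinv := Cfsg.Agent.Lib.ExtraAut.Basic.inv_iff_of_forward hα (by positivity) hMα
    have hlt : Nat.card M < n := by
      rw [← hn]
      have h1 : Nat.card M ≤ Nat.card T := Subgroup.card_le_card_group M
      refine lt_of_le_of_ne h1 ?_
      intro h2
      exact hM (Subgroup.eq_top_of_card_eq M h2)
    let α' : MulAut M := Cfsg.Agent.Lib.ExtraAut.Basic.restr α M hinv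
    have hα' : α' ^ 3 ^ b = 1 := Cfsg.Agent.Lib.ExtraAut.Basic.restr_pow_eq_one hα M hinv
    have hfix' : ∀ y, α' y = y → y = 1 := by
      intro y hy
      apply Subtype.ext
      exact hfix _ (congrArg Subtype.val hy)
    have h4' : Nat.card {y : M // y * y = 1} ≤ 4 := by
      refine le_trans (Nat.card_le_card_of_injective
        (fun y : {y : M // y * y = 1} => (⟨(y.1 : T), congrArg Subtype.val y.2⟩ : {x : T // x * x = 1})) ?_) h4
      intro a b hab
      apply Subtype.ext
      apply Subtype.ext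
      exact congrArg (fun p : {x : T // x * x = 1} => (p : T)) hab
    have := IH _ hlt M rfl (hT.to_subgroup M) α' b hα' hfix' h4' ⟨x, hx⟩
    exact congrArg Subtype.val this

theorem cube {T : Type u} [Group T] [Finite T] (hT : IsPGroup 2 T) (α : MulAut T) {b : ℕ}
    (hα : α ^ 3 ^ b = 1) (hfix : ∀ x, α x = x → x = 1) (h4 : Nat.card {x : T // x * x = 1} ≤ 4) :
    ∀ x, α (α (α x)) = x :=
  cube_aux _ T rfl hT α b hα hfix h4

end Cfsg.Agent.Lib.RankTwoAut.Cube
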