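import Mathlib

/-!
# A fixed-point-free automorphism of order three

`x · αx · α²x = 1`, `⁅a, αb⁆ = α²⁅a, b⁆` and every commutator is central.
-/

set_option autoImplicit false

namespace Cfsg.Agent.Lib.RankTwoAut.Fpf3

open scoped commutatorElement

section ClassTwo

variable {T : Type*} [Group T] (hc : ∀ p q g : T, g * ⁅p, q⁆ = ⁅p, q⁆ * g)

include hc

theorem sq_mul (x y : T) : x * y * (x * y) = x * x * (y * y) * ⁅y, x⁆ := by
  have h1 : ⁅y, x⁆ * (x * y) = y * x := by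
    rw [commutatorElement_def]; group
  calc x * y * (x * y) = x * (y * x) * y := by group
    _ = x * (⁅y, x⁆ * (x * y)) * y := by rw [h1]
    _ = (x * ⁅y, x⁆) * (x * y) * y := by group
    _ = (⁅y, x⁆ * x) * (x * y) * y := by rw [hc]
    _ = ⁅y, x⁆ * (x * x * (y * y)) := by group
    _ = x * x * (y * y) * ⁅y, x⁆ := by rw [hc]

theorem comm_mul_left (x y z : T) : ⁅x * y, z⁆ = ⁅x, z⁆ * ⁅y, z⁆ := by
  have h1 : ⁅x * y, z⁆ = x * ⁅y, z⁆ * x⁻¹ * ⁅x, z⁆ := by
    simp only [commutatorElement_def]; group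
  rw [h1, hc y z x, mul_inv_cancel_right]
  exact hc x z ⁅y, z⁆

theorem comm_mul_right (x y z : T) : ⁅x, y * z⁆ = ⁅x, y⁆ * ⁅x, z⁆ := by
  have h1 : ⁅x, y * z⁆ = ⁅x, y⁆ * (y * ⁅x, z⁆ * y⁻¹) := by
    simp only [commutatorElement_def]; group
  rw [h1, hc]
  group

theorem comm_sq (x y : T) : ⁅x * x, y⁆ = ⁅x, y⁆ * ⁅x, y⁆ := comm_mul_left hc x x y

omit hc in
theorem comm_swap (x y : T) : ⁅y, x⁆ = ⁅x, y⁆⁻¹ := by
  simp only [commutatorElement_def]; group

end ClassTwo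

variable {T : Type*} [Group T] [Finite T] {α : MulAut T}

/-- The map `y ↦ y⁻¹ * α y` is injective. -/
theorem twist_inj (hfix : ∀ x, α x = x → x = 1) : Function.Injective (fun y : T => y⁻¹ * α y) := by
  intro y z h
  have h' : y⁻¹ * α y = z⁻¹ * α z := h
  have h1 : α (z * y⁻¹) = z * y⁻¹ := by
    rw [map_mul, map_inv]
    have : α z = z * (y⁻¹ * α y) := by rw [h']; group
    rw [this]
    group
  have h2 := hfix _ h1
  have h3 : z = y := mul_inv_eq_one.mp h2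
  exact h3.symm

theorem twist_surj (hfix : ∀ x, α x = x → x = 1) (x : T) : ∃ y, x = y⁻¹ * α y := by
  obtain ⟨y, hy⟩ := (Finite.injective_iff_surjective.mp (twist_inj hfix)) x
  exact ⟨y, hy.symm⟩

/-- A fixed-point-free automorphism is fixed-point-free on cosets of an invariant subgroup. -/
theorem mem_of_fixed_coset (hfix : ∀ x, α x = x → x = 1) {N : Subgroup T} [N.Normal]
    (hN : ∀ x ∈ N, α x ∈ N) {t : T} (ht : t⁻¹ * α t ∈ N) : t ∈ N := by
  -- the map `n ↦ (t n)⁻¹ α (t n)` from `N` to `N` is injective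
  have hmaps : ∀ n : N, ((n : T)⁻¹ * (t⁻¹ * α t) * α (n : T)) ∈ N := fun n =>
    N.mul_mem (N.mul_mem (N.inv_mem n.2) ht) (hN _ n.2)
  let f : N → N := fun n => ⟨_, hmaps n⟩
  have hinj : Function.Injective f := by
    intro m n hmn
    have h1 : (m : T)⁻¹ * (t⁻¹ * α t) * α (m : T) = (n : T)⁻¹ * (t⁻¹ * α t) * α (n : T) :=
      congrArg Subtype.val hmn
    have h2 : (t * m)⁻¹ * α (t * m) = (t * n)⁻¹ * α (t * n) := by
      simp only [map_mul, mul_inv_rev]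
      calc (m : T)⁻¹ * t⁻¹ * (α t * α m) = (m : T)⁻¹ * (t⁻¹ * α t) * α (m : T) := by group
        _ = (n : T)⁻¹ * (t⁻¹ * α t) * α (n : T) := h1
        _ = (n : T)⁻¹ * t⁻¹ * (α t * α n) := by group
    have h3 := twist_inj hfix h2
    exact Subtype.ext (mul_left_cancel h3)
  obtain ⟨n, hn⟩ := (Finite.injective_iff_surjective.mp hinj) 1
  have h4 : (n : T)⁻¹ * (t⁻¹ * α t) * α (n : T) = 1 := congrArg Subtype.val hn
  have h5 : α (t * n) = t * n := by
    rw [map_mul]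
    have : (t * n)⁻¹ * (α t * α n) = 1 := by
      rw [← h4]; group
    have h6 := (inv_mul_eq_one.mp this)
    exact h6.symm
  have h7 := hfix _ h5
  have h8 : t = (n : T)⁻¹ := eq_inv_of_mul_eq_one_left h7
  rw [h8]
  exact N.inv_mem n.2

section Order3

variable (h3 : ∀ x, α (α (α x)) = x) (hfix : ∀ x, α x = x → x = 1)
include h3 hfix

theorem mul_images (x : T) : x * α x * α (α x) = 1 := by
  obtain ⟨y, rfl⟩ := twist_surj hfix x
  simp only [map_mul, map_inv, h3]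
  group

/-- `α² x = (α x)⁻¹ * x⁻¹`. -/
theorem square_eq (x : T) : α (α x) = (α x)⁻¹ * x⁻¹ := by
  have h1 := mul_images h3 hfix x
  have : α (α x) = (x * α x)⁻¹ := eq_inv_of_mul_eq_one_right h1
  rw [this, mul_inv_rev]

theorem images_comm (x : T) : α x * α (α x) = α (α x) * α x := by
  have h1 := mul_images h3 hfix x
  have h2 := mul_images h3 hfix x⁻¹
  simp only [map_inv] at h2
  have h4 : α (α x) * α x * x = 1 := by
    have := congrArg (fun t => t⁻¹) h2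
    simpa [mul_assoc] using this
  have h5 : α x * α (α x) * x = 1 := by
    have : x⁻¹ * (x * α x * α (α x)) * x = 1 := by rw [h1]; group
    rw [← this]; group
  exact mul_right_cancel (h5.trans h4.symm)

theorem self_comm (x : T) : x * α x = α x * x := by
  have h1 := images_comm h3 hfix (α (α x))
  simpa only [h3] using h1

/-- The basic relation: `⁅αa, c⁻¹⁆ = ⁅a⁻¹, αc⁆`. -/
theorem comm_rel (a c : T) : ⁅α a, c⁻¹⁆ = ⁅a⁻¹, α c⁆ := by
  have h0 := mul_images h3 hfix (a * α (α c))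
  simp only [map_mul, h3] at h0
  rw [square_eq h3 hfix a, square_eq h3 hfix c] at h0
  have h1 : c * α c = (α a * c * (α a)⁻¹) * (a⁻¹ * α c * a) := by
    have h2 : (c * α c) * (a⁻¹ * (a * ((α c)⁻¹ * c⁻¹) * (α a * c) * ((α a)⁻¹ * a⁻¹ * α c)) * a)
        = (α a * c * (α a)⁻¹) * (a⁻¹ * α c * a) := by group
    rw [h0] at h2
    rw [← h2]; group
  simp only [commutatorElement_def]
  have h4 : (a⁻¹ * α c * a) = (α a * c * (α a)⁻¹)⁻¹ * (c * α c) := by
    rw [h1]; group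
  calc α a * c⁻¹ * (α a)⁻¹ * (c⁻¹)⁻¹ = (α a * c * (α a)⁻¹)⁻¹ * (c * α c) * (α c)⁻¹ := by group
    _ = (a⁻¹ * α c * a) * (α c)⁻¹ := by rw [h4]
    _ = a⁻¹ * α c * (a⁻¹)⁻¹ * (α c)⁻¹ := by group

/-- `⁅a, αb⁆ = α²⁅a, b⁆`. -/
theorem comm_right (a b : T) : ⁅a, α b⁆ = α (α ⁅a, b⁆) := by
  have h1 : ⁅a, α b⁆ = ⁅α a⁻¹, b⁻¹⁆ := by
    have := comm_rel h3 hfix a⁻¹ b
    rw [inv_inv] at this
    exact this.symm
  have h2 : ⁅α a⁻¹, b⁻¹⁆ = ⁅α (α a), α (α b)⁆ := by
    have := comm_rel h3 hfix (α a) (α (α b⁻¹))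
    simp only [h3, map_inv, inv_inv] at this
    simp only [map_inv]
    exact this.symm
  rw [h1, h2]
  simp only [commutatorElement_def, map_mul, map_inv]

/-- `⁅αa, b⁆ = α²⁅a, b⁆`. -/
theorem comm_left (a b : T) : ⁅α a, b⁆ = α (α ⁅a, b⁆) := by
  have h1 := comm_right h3 hfix b a
  have h2 : ⁅α a, b⁆ = ⁅b, α a⁆⁻¹ := by simp only [commutatorElement_def]; group
  have h4 : ⁅a, b⁆ = ⁅b, a⁆⁻¹ := by simp only [commutatorElement_def]; group
  rw [h2, h1, h4, map_inv, map_inv]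

/-- Every commutator is central (B. H. Neumann). -/
theorem comm_central (p q g : T) : g * ⁅p, q⁆ = ⁅p, q⁆ * g := by
  obtain ⟨y, rfl⟩ := twist_surj hfix g
  -- the expansion of `⁅y * b, B⁆`
  set a := α (α y) with ha
  have hay : α a = y := h3 y
  set b := α p with hb
  set B := α q with hB
  have e1 : ⁅α a * α b, B⁆ = α (α ⁅a * b, B⁆) := by
    rw [← map_mul, comm_left h3 hfix]
  have gen : ∀ x z w : T, ⁅x * z, w⁆ = x * ⁅z, w⁆ * x⁻¹ * ⁅x, w⁆ := by
    intro x z w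
    simp only [commutatorElement_def]; group
  rw [gen, gen, map_mul, map_mul, map_mul, map_mul, map_mul, map_mul, map_inv, map_inv,
    comm_left h3 hfix b B, comm_left h3 hfix a B] at e1
  have e2 := mul_right_cancel e1
  have hw : α (α ⁅b, B⁆) = ⁅p, q⁆ := by
    simp only [hb, hB, commutatorElement_def, map_mul, map_inv, h3]
  rw [hw, hay] at e2
  have e3 : y * ⁅p, q⁆ = α y * ⁅p, q⁆ * (α y)⁻¹ * y := by
    rw [← e2]; group
  calc y⁻¹ * α y * ⁅p, q⁆ = y⁻¹ * (α y * ⁅p, q⁆ * (α y)⁻¹ * y) * (y⁻¹ * α y) := by group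
    _ = y⁻¹ * (y * ⁅p, q⁆) * (y⁻¹ * α y) := by rw [← e3]
    _ = ⁅p, q⁆ * (y⁻¹ * α y) := by group

end Order3

end Cfsg.Agent.Lib.RankTwoAut.Fpf3
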