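import Cfsg.Agent.Lib.RankTwoAut.Homo
import Cfsg.Agent.Lib.RankTwoAut.Fpf3

/-!
# The three involutions of a `2`-group with a fixed-point-free `3`-automorphism
-/

set_option autoImplicit false
set_option linter.unusedSectionVars false
set_option linter.style.haveILetI false

namespace Cfsg.Agent.Lib.RankTwoAut.Setup

open Cfsg.Agent.Lib.RankTwoAut.Homo

variable {T : Type*} [Group T] [Finite T]

/-- A nontrivial element of a `2`-group has a power which is an involution. -/
theorem exists_invol (hT : IsPGroup 2 T) {g : T} (hg : g ≠ 1) :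
    ∃ m : ℕ, g ^ m ≠ 1 ∧ g ^ m * g ^ m = 1 := by
  obtain ⟨k, hk⟩ := (IsPGroup.iff_orderOf.mp hT) g
  have hk0 : k ≠ 0 := by
    rintro rfl
    exact hg (orderOf_eq_one_iff.mp (by simpa using hk))
  refine ⟨2 ^ (k - 1), ?_, ?_⟩
  · apply pow_ne_one_of_lt_orderOf (by positivity)
    rw [hk]
    exact Nat.pow_lt_pow_right (by norm_num) (by omega)
  · have e : (2 : ℕ) ^ k = 2 ^ (k - 1) + 2 ^ (k - 1) := by
      rw [← two_mul, ← pow_succ']; congr 1; omega
    rw [← pow_add, ← e, ← hk, pow_orderOf_eq_one]

/-- The structure of the set of square roots of one. -/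
structure IsV (α : MulAut T) (z : T) : Prop where
  ne_one : z ≠ 1
  sq : z * z = 1
  central : ∀ g, g * z = z * g
  ne1 : α z ≠ z
  ne2 : α (α z) ≠ z
  cube : α (α (α z)) = z
  all : ∀ x, x * x = 1 → x = 1 ∨ x = z ∨ x = α z ∨ x = α (α z)

theorem exists_z (hT : IsPGroup 2 T) [Nontrivial T] (α : MulAut T) {b : ℕ} (hα : α ^ 3 ^ b = 1)
    (hfix : ∀ x, α x = x → x = 1) (h4 : Nat.card {x : T // x * x = 1} ≤ 4) :
    ∃ z : T, IsV α z := by
  haveI := hT.center_nontrivial
  obtain ⟨g, hg⟩ := exists_ne (1 : Subgroup.center T)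
  have hg' : (g : T) ≠ 1 := fun h => hg (Subtype.ext h)
  obtain ⟨m, hm1, hm2⟩ := exists_invol hT hg'
  set z := (g : T) ^ m with hz
  have hzc : ∀ h, h * z = z * h := by
    intro h
    have : z ∈ Subgroup.center T := Subgroup.pow_mem _ g.2 m
    exact (Subgroup.mem_center_iff.mp this) h
  have h1 : α z ≠ z := fun h => hm1 (hfix _ h)
  have h2 : α (α z) ≠ z := by
    intro hc
    have key : ∀ k : ℕ, (α ^ (2 * k + 1)) z = α z := by
      intro k
      induction k with
      | zero => simp
      | succ k ih =>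
        have e : (α ^ (2 * (k + 1) + 1)) z = α (α ((α ^ (2 * k + 1)) z)) := by
          rw [show 2 * (k + 1) + 1 = (2 * k + 1) + 1 + 1 by ring, pow_succ', pow_succ']
          rfl
        rw [e, ih, hc]
    obtain ⟨k, hk⟩ : ∃ k, 3 ^ b = 2 * k + 1 := (Odd.pow (by decide : Odd 3)).exists_bit1
    have h3 := key k
    rw [← hk, hα] at h3
    exact h1 h3.symm
  have hαz2 : α z * α z = 1 := by rw [← map_mul, hm2, map_one]
  have hααz2 : α (α z) * α (α z) = 1 := by rw [← map_mul, hαz2, map_one]
  have h01 : (1 : T) ≠ α z := fun h => hm1 ((map_eq_one_iff α α.injective).mp h.symm)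
  have h02 : (1 : T) ≠ α (α z) := fun h => h01 ((map_eq_one_iff α α.injective).mp h.symm).symm
  have h12 : α z ≠ α (α z) := fun h => h1 (α.injective h).symm
  have hall : ∀ x, x * x = 1 → x = 1 ∨ x = z ∨ x = α z ∨ x = α (α z) :=
    fun x hx => four_fill h4 (mul_one 1) hm2 hαz2 hααz2 hm1.symm h01 h02 h1.symm h2.symm h12 x hx
  refine ⟨z, hm1, hm2, hzc, h1, h2, ?_, hall⟩
  have h3 : α (α (α z)) * α (α (α z)) = 1 := by rw [← map_mul, hααz2, map_one]
  rcases hall _ h3 with h | h | h | h
  · exfalso
    exact hm1 ((map_eq_one_iff α α.injective).mp ((map_eq_one_iff α α.injective).mp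
      ((map_eq_one_iff α α.injective).mp h)))
  · exact h
  · exact absurd (α.injective h) h2
  · exact absurd (α.injective (α.injective h)) h1

namespace IsV

variable {α : MulAut T} {z : T} (hV : IsV α z)

include hV

theorem rot : IsV α (α z) := by
  refine ⟨fun h => hV.ne_one ((map_eq_one_iff α α.injective).mp h),
    by rw [← map_mul, hV.sq, map_one], ?_, fun h => hV.ne1 (α.injective h),
    fun h => hV.ne2 (α.injective h), by rw [hV.cube], ?_⟩
  · intro g
    obtain ⟨g', rfl⟩ := α.surjective g
    rw [← map_mul, ← map_mul, hV.central]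
  · intro x hx
    rcases hV.all x hx with h | h | h | h
    · exact Or.inl h
    · right; right; right; rw [hV.cube]; exact h
    · right; left; exact h
    · right; right; left; exact h

theorem central_of_sq {x : T} (hx : x * x = 1) (g : T) : g * x = x * g := by
  rcases hV.all x hx with h | h | h | h
  · simp [h]
  · rw [h]; exact hV.central g
  · rw [h]; exact hV.rot.central g
  · rw [h]; exact hV.rot.rot.central g

theorem sq_map {x : T} (hx : x * x = 1) : α x * α x = 1 := by
  rw [← map_mul, hx, map_one]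

theorem map3_of_sq {x : T} (hx : x * x = 1) : α (α (α x)) = x := by
  rcases hV.all x hx with h | h | h | h
  · simp [h]
  · rw [h]; exact hV.cube
  · rw [h]; exact hV.rot.cube
  · rw [h]; exact hV.rot.rot.cube

/-- The product of the first two involutions is the third. -/
theorem mul_eq : z * α z = α (α z) := by
  have h1 : (z * α z) * (z * α z) = 1 := by
    calc (z * α z) * (z * α z) = z * (α z * z) * α z := by group
      _ = z * (z * α z) * α z := by rw [hV.central (α z)]
      _ = (z * z) * (α z * α z) := by group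
      _ = 1 := by rw [hV.sq, hV.rot.sq, one_mul]
  rcases hV.all _ h1 with h | h | h | h
  · exfalso
    apply hV.ne1
    have h2 : α z = z⁻¹ := eq_inv_of_mul_eq_one_right h
    rw [h2]
    exact inv_eq_of_mul_eq_one_left hV.sq
  · exfalso
    apply hV.rot.ne_one
    exact mul_left_cancel (a := z) (by rw [h, mul_one])
  · exfalso
    apply hV.ne_one
    exact mul_right_cancel (b := α z) (by rw [h, one_mul])
  · exact h

theorem mul_of_sq {x y : T} (hx : x * x = 1) (hy : y * y = 1) : (x * y) * (x * y) = 1 := by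
  calc (x * y) * (x * y) = x * (y * x) * y := by group
    _ = x * (x * y) * y := by rw [hV.central_of_sq hx y]
    _ = (x * x) * (y * y) := by group
    _ = 1 := by rw [hx, hy, one_mul]

/-- The subgroup of square roots of one. -/
def sub : Subgroup T where
  carrier := {x | x * x = 1}
  one_mem' := by simp
  mul_mem' := fun hx hy => hV.mul_of_sq hx hy
  inv_mem' := by
    intro x hx
    have hx' : x * x = 1 := hx
    have : x⁻¹ = x := inv_eq_of_mul_eq_one_left hx'
    show x⁻¹ * x⁻¹ = 1
    rw [this, hx']

theorem mem_sub {x : T} : x ∈ hV.sub ↔ x * x = 1 := Iff.rfl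

theorem sub_normal : hV.sub.Normal := by
  constructor
  intro n hn g
  have hn' : n * n = 1 := hn
  have h1 : g * n = n * g := hV.central_of_sq hn' g
  show (g * n * g⁻¹) * (g * n * g⁻¹) = 1
  rw [h1, mul_inv_cancel_right, hn']

theorem card_sub : Nat.card hV.sub = 4 := by
  classical
  have e : (hV.sub : Set T) = {1, z, α z, α (α z)} := by
    ext x
    simp only [Set.mem_insert_iff, Set.mem_singleton_iff, SetLike.mem_coe]
    constructor
    · exact hV.all x
    · rintro (h | h | h | h)
      · simp [h]
      · rw [h]; exact hV.sq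
      · rw [h]; exact hV.rot.sq
      · rw [h]; exact hV.rot.rot.sq
  have h1 : Nat.card hV.sub = Nat.card ((hV.sub : Set T)) := rfl
  rw [h1, e]
  have hne : z ≠ 1 := hV.ne_one
  have h01 : α z ≠ 1 := hV.rot.ne_one
  have h02 : α (α z) ≠ 1 := hV.rot.rot.ne_one
  have h12 : α (α z) ≠ z := hV.ne2
  have h13 : α z ≠ z := hV.ne1
  have h23 : α (α z) ≠ α z := hV.rot.ne1
  rw [Nat.card_eq_fintype_card, Fintype.card_ofFinset]
  simp only [Set.toFinset_insert, Set.toFinset_singleton]
  rw [Finset.card_insert_of_notMem, Finset.card_insert_of_notMem, Finset.card_insert_of_notMem,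
    Finset.card_singleton]
  · simp only [Finset.mem_singleton]; exact h23.symm
  · simp only [Finset.mem_insert, Finset.mem_singleton]
    rintro (h | h)
    · exact h13 h.symm
    · exact h12 h.symm
  · simp only [Finset.mem_insert, Finset.mem_singleton]
    rintro (h | h | h)
    · exact hne h.symm
    · exact h01 h.symm
    · exact h02 h.symm

/-- A nonidentity square root of one also gives the structure. -/
theorem of_sq {x : T} (hx1 : x ≠ 1) (hx : x * x = 1) : IsV α x := by
  rcases hV.all x hx with h | h | h | h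
  · exact absurd h hx1
  · rw [h]; exact hV
  · rw [h]; exact hV.rot
  · rw [h]; exact hV.rot.rot

end IsV

/-- The order modulo three. -/
theorem card_mod3 {α : MulAut T} {b : ℕ} (hα : α ^ 3 ^ b = 1) (hfix : ∀ x, α x = x → x = 1) :
    Nat.card T % 3 = 1 := by
  classical
  haveI := Fintype.ofFinite T
  haveI : Fact (Nat.Prime 3) := ⟨by norm_num⟩
  let f : Function.End T := fun x => α x
  have hpow : ∀ (n : ℕ) (x : T), (f ^ n) x = (α ^ n) x := by
    intro n
    induction n with
    | zero => intro x; rfl
    | succ n ih =>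
      intro x
      rw [pow_succ, pow_succ]
      show (f ^ n) (f x) = (α ^ n) (α x)
      rw [ih]
  have hf : f ^ 3 ^ b = 1 := by
    funext x
    rw [hpow, hα]
    rfl
  have h := Equiv.Perm.card_fixedPoints_modEq hf
  have hcard : Fintype.card (Function.fixedPoints f) = 1 := by
    rw [Fintype.card_eq_one_iff]
    refine ⟨⟨1, by simp [Function.IsFixedPt, f]⟩, ?_⟩
    rintro ⟨x, hx⟩
    apply Subtype.ext
    exact hfix x hx
  rw [hcard] at h
  rw [Nat.card_eq_fintype_card]
  exact h

theorem card_cases (hT : IsPGroup 2 T) (hmod : Nat.card T % 3 = 1) (hlt : Nat.card T < 256) :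
    Nat.card T = 1 ∨ Nat.card T = 4 ∨ Nat.card T = 16 ∨ Nat.card T = 64 := by
  obtain ⟨n, hn⟩ := IsPGroup.iff_card.mp hT
  rw [hn] at hlt hmod ⊢
  have hn8 : n < 8 := by
    by_contra h
    have : 2 ^ 8 ≤ 2 ^ n := Nat.pow_le_pow_right (by norm_num) (by omega)
    omega
  interval_cases n <;> simp_all

end Cfsg.Agent.Lib.RankTwoAut.Setup
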