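import Cfsg.Agent.Lib.Classical.Herm.SzModel
import Cfsg.Agent.Lib.RankTwoAut.Setup

/-!
# A group with the right norm and polar form is the Sylow `2`-subgroup of `PSU₃(4)`
-/

set_option autoImplicit false
set_option linter.unusedSectionVars false
set_option linter.style.haveILetI false

namespace Cfsg.Agent.Lib.RankTwoAut.Fibre

open scoped commutatorElement
open Cfsg.Agent.Lib.Classical.Herm.SzModel

/-- In a group whose quotient by `E` is elementary abelian (on `D`), a subgroup `K/E` has a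
complement. -/
theorem exists_complement {X : Type*} [Group X] [Finite X] (D E K : Subgroup X)
    (hEK : E ≤ K) (hKD : K ≤ D) (hsq : ∀ d ∈ D, d * d ∈ E) (hcomm : ∀ d ∈ D, ∀ d' ∈ D, ⁅d, d'⁆ ∈ E) :
    ∃ L : Subgroup X, E ≤ L ∧ L ≤ D ∧ (∀ k ∈ L, k ∈ K → k ∈ E) ∧
      ∀ d ∈ D, ∃ l ∈ L, ∃ k ∈ K, d = l * k := by
  classical
  let S : Set (Subgroup X) := {L | E ≤ L ∧ L ≤ D ∧ ∀ k ∈ L, k ∈ K → k ∈ E}
  have hS : S.Finite := Set.toFinite S
  have hne : S.Nonempty := ⟨E, le_rfl, hEK.trans hKD, fun _ h _ => h⟩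
  obtain ⟨L, hL⟩ := hS.exists_maximal hne
  obtain ⟨hL1, hL2, hL3⟩ := hL.1
  refine ⟨L, hL1, hL2, hL3, ?_⟩
  by_contra hcon
  push Not at hcon
  obtain ⟨d, hd, hdn⟩ := hcon
  have hdL : d ∉ L := fun h => hdn d h 1 K.one_mem (by simp)
  -- the explicit larger subgroup
  have hswap : ∀ l ∈ L, ∃ l' ∈ L, d * l = l' * d := by
    intro l hl
    refine ⟨⁅d, l⁆ * l, L.mul_mem (hL1 (hcomm d hd l (hL2 hl))) hl, ?_⟩
    rw [commutatorElement_def]
    group
  have hdd : d * d ∈ L := hL1 (hsq d hd)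
  have hmem2 : ∀ l ∈ L, ∀ l' ∈ L, (l * d) * (l' * d) ∈ L := by
    intro l hl l' hl'
    obtain ⟨m, hm, hme⟩ := hswap l' hl'
    have : (l * d) * (l' * d) = l * m * (d * d) := by
      calc (l * d) * (l' * d) = l * (d * l') * d := by group
        _ = l * (m * d) * d := by rw [hme]
        _ = _ := by group
    rw [this]
    exact L.mul_mem (L.mul_mem hl hm) hdd
  let L' : Subgroup X :=
    { carrier := {x | x ∈ L ∨ ∃ l ∈ L, x = l * d}
      one_mem' := Or.inl L.one_mem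
      mul_mem' := by
        rintro x y (hx | ⟨l, hl, rfl⟩) (hy | ⟨l', hl', rfl⟩)
        · exact Or.inl (L.mul_mem hx hy)
        · exact Or.inr ⟨x * l', L.mul_mem hx hl', by group⟩
        · obtain ⟨m, hm, hme⟩ := hswap y hy
          refine Or.inr ⟨l * m, L.mul_mem hl hm, ?_⟩
          calc l * d * y = l * (d * y) := by group
            _ = l * (m * d) := by rw [hme]
            _ = _ := by group
        · exact Or.inl (hmem2 l hl l' hl')
      inv_mem' := by
        rintro x (hx | ⟨l, hl, rfl⟩)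
        · exact Or.inl (L.inv_mem hx)
        · refine Or.inr ⟨((l * d) * (l * d))⁻¹ * l, L.mul_mem (L.inv_mem (hmem2 l hl l hl)) hl, ?_⟩
          group }
  have hL'S : L' ∈ S := by
    refine ⟨hL1.trans (fun x hx => Or.inl hx), ?_, ?_⟩
    · rintro x (hx | ⟨l, hl, rfl⟩)
      · exact hL2 hx
      · exact D.mul_mem (hL2 hl) hd
    · rintro k (hk | ⟨l, hl, rfl⟩) hkK
      · exact hL3 k hk hkK
      · exfalso
        exact hdn l⁻¹ (L.inv_mem hl) _ hkK (by group)
  have hle : L ≤ L' := fun x hx => Or.inl hx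
  have hle' := hL.2 hL'S hle
  exact hdL (hle' (Or.inr ⟨1, L.one_mem, by simp⟩))

variable {T P F : Type*} [Group T] [Finite T] [Group P] [Field F] [Fintype F] [CharP F 2]

theorem fibre (hF : Fintype.card F = 4 ^ 2) {AP BP : P → F} (hP : IsSz 4 AP BP) (A ι : T → F)
    (A_mul : ∀ x y, A (x * y) = A x + A y)
    (hA0 : ∀ x, A x = 0 ↔ x * x = 1)
    (ι_mul : ∀ u v, u * u = 1 → v * v = 1 → ι (u * v) = ι u + ι v)
    (ι_inj : ∀ u, u * u = 1 → ι u = 0 → u = 1)
    (ι_fix : ∀ u, u * u = 1 → (ι u) ^ 4 = ι u)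
    (ι_sq : ∀ x, ι (x * x) = (A x) ^ 5)
    (ι_comm : ∀ x y, ι ⁅x, y⁆ = A y * (A x) ^ 4 + A x * (A y) ^ 4)
    (hcomm : ∀ x y : T, ⁅x, y⁆ * ⁅x, y⁆ = 1)
    (hsq : ∀ x : T, x * x * (x * x) = 1)
    (card : Nat.card T = 64) : Nonempty (T ≃* P) := by
  classical
  have hq : (4 : ℕ) ≠ 0 := by norm_num
  haveI : Finite P := hP.finite hF
  have hι1 : ι 1 = 0 := by
    have := ι_mul 1 1 (by simp) (by simp)
    rw [mul_one] at this
    simpa using this
  let D : Subgroup (T × P) :=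
    { carrier := {x | A x.1 = AP x.2}
      one_mem' := by
        show A 1 = AP 1
        rw [hP.A_one, (hA0 1).2 (by simp)]
      mul_mem' := by
        rintro ⟨t, p⟩ ⟨t', p'⟩ h h'
        show A (t * t') = AP (p * p')
        rw [A_mul, hP.A_mul, show A t = AP p from h, show A t' = AP p' from h']
      inv_mem' := by
        rintro ⟨t, p⟩ h
        show A t⁻¹ = AP p⁻¹
        have h1 := A_mul t⁻¹ t
        rw [inv_mul_cancel, (hA0 1).2 (by simp)] at h1
        have h2 : A t⁻¹ = A t := by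
          have h3 : (2 : F) = 0 := CharTwo.two_eq_zero
          linear_combination -h1 - A t * h3
        rw [h2, hP.A_inv]
        exact h }
  let K : Subgroup (T × P) :=
    { carrier := {x | A x.1 = 0 ∧ AP x.2 = 0}
      one_mem' := ⟨(hA0 1).2 (by simp), hP.A_one⟩
      mul_mem' := by
        rintro ⟨t, p⟩ ⟨t', p'⟩ ⟨h1, h2⟩ ⟨h3, h4⟩
        refine ⟨?_, ?_⟩
        · show A (t * t') = 0
          rw [A_mul, show A t = 0 from h1, show A t' = 0 from h3, add_zero]
        · show AP (p * p') = 0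
          rw [hP.A_mul, show AP p = 0 from h2, show AP p' = 0 from h4, add_zero]
      inv_mem' := by
        rintro ⟨t, p⟩ ⟨h1, h2⟩
        refine ⟨?_, ?_⟩
        · show A t⁻¹ = 0
          have h5 : t * t = 1 := (hA0 t).1 h1
          rw [inv_eq_of_mul_eq_one_left h5]
          exact h1
        · show AP p⁻¹ = 0
          rw [hP.A_inv]
          exact h2 }
  let E : Subgroup (T × P) :=
    { carrier := {x | A x.1 = 0 ∧ AP x.2 = 0 ∧ BP x.2 = ι x.1}
      one_mem' := ⟨(hA0 1).2 (by simp), hP.A_one, by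
        show BP 1 = ι 1
        rw [hP.B_one hq, hι1]⟩
      mul_mem' := by
        rintro ⟨t, p⟩ ⟨t', p'⟩ ⟨h1, h2, h3⟩ ⟨h4, h5, h6⟩
        simp only at h1 h2 h3 h4 h5 h6
        refine ⟨?_, ?_, ?_⟩
        · show A (t * t') = 0
          rw [A_mul, h1, h4, add_zero]
        · show AP (p * p') = 0
          rw [hP.A_mul, h2, h5, add_zero]
        · show BP (p * p') = ι (t * t')
          rw [hP.B_mul, ι_mul _ _ ((hA0 t).1 h1) ((hA0 t').1 h4), h3, h6, h5, zero_mul, add_zero]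
      inv_mem' := by
        rintro ⟨t, p⟩ ⟨h1, h2, h3⟩
        simp only at h1 h2 h3
        have h5 : t * t = 1 := (hA0 t).1 h1
        have h6 : t⁻¹ = t := inv_eq_of_mul_eq_one_left h5
        refine ⟨?_, ?_, ?_⟩
        · show A t⁻¹ = 0
          rw [h6]; exact h1
        · show AP p⁻¹ = 0
          rw [hP.A_inv]; exact h2
        · show BP p⁻¹ = ι t⁻¹
          rw [hP.B_inv hq, h6, h2, h3, zero_pow (by norm_num), add_zero] }
  have hEK : E ≤ K := fun x hx => ⟨hx.1, hx.2.1⟩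
  have hKD : K ≤ D := by
    intro x hx
    show A x.1 = AP x.2
    rw [hx.1, hx.2]
  have hDsq : ∀ d ∈ D, d * d ∈ E := by
    rintro ⟨t, p⟩ h
    have h' : A t = AP p := h
    refine ⟨?_, hP.A_sq p, ?_⟩
    · show A (t * t) = 0
      rw [hA0]
      exact hsq t
    · show BP (p * p) = ι (t * t)
      rw [hP.B_sq, ι_sq, h']
  have hDcomm : ∀ d ∈ D, ∀ d' ∈ D, ⁅d, d'⁆ ∈ E := by
    rintro ⟨t, p⟩ h ⟨t', p'⟩ h'
    have h1 : A t = AP p := h
    have h2 : A t' = AP p' := h'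
    have e : ⁅((t, p) : T × P), ((t', p') : T × P)⁆ = (⁅t, t'⁆, ⁅p, p'⁆) := by
      simp [commutatorElement_def]
    rw [e]
    refine ⟨?_, hP.A_comm hF p p', ?_⟩
    · show A ⁅t, t'⁆ = 0
      rw [hA0]
      exact hcomm t t'
    · show BP ⁅p, p'⁆ = ι ⁅t, t'⁆
      rw [hP.B_comm hF, ι_comm, h1, h2]
  obtain ⟨L, hL1, hL2, hL3, hL4⟩ := exists_complement D E K hEK hKD hDsq hDcomm
  -- existence and uniqueness of the second coordinate
  have hex : ∀ t : T, ∃ p, (t, p) ∈ L := by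
    intro t
    obtain ⟨p₀, hp₀⟩ := hP.exists_A hF (A t)
    obtain ⟨l, hl, k, hk, hlk⟩ := hL4 (t, p₀) (show A t = AP p₀ from hp₀.symm)
    obtain ⟨h1, h2⟩ := hk
    have h3 : k.1 * k.1 = 1 := (hA0 _).1 h1
    obtain ⟨p', hp'1, hp'2⟩ := hP.exists_of_fixed hF (ι_fix _ h3)
    have hE : ((k.1, p') : T × P) ∈ E := ⟨h1, hp'1, hp'2⟩
    refine ⟨l.2 * p', ?_⟩
    have h5 := L.mul_mem hl (hL1 hE)
    have h6 : t = l.1 * k.1 := congrArg Prod.fst hlk
    have h7 : l * (k.1, p') = (t, l.2 * p') := by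
      apply Prod.ext
      · exact h6.symm
      · rfl
    rwa [h7] at h5
  have huniq : ∀ t p p', (t, p) ∈ L → (t, p') ∈ L → p = p' := by
    intro t p p' h1 h2
    have h3 := L.mul_mem (L.inv_mem h1) h2
    have h4 : ((t, p) : T × P)⁻¹ * (t, p') = (1, p⁻¹ * p') := by
      apply Prod.ext
      · simp
      · rfl
    rw [h4] at h3
    have h5 : A 1 = AP (p⁻¹ * p') := hL2 h3
    have h6 : A 1 = 0 := (hA0 1).2 (by simp)
    rw [h6] at h5
    have h7 : ((1, p⁻¹ * p') : T × P) ∈ E := hL3 _ h3 ⟨h6, h5.symm⟩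
    have h8 : BP (p⁻¹ * p') = ι 1 := h7.2.2
    rw [hι1] at h8
    have h9 : p⁻¹ * p' = 1 := (hP.eq_one_iff hq).2 ⟨h5.symm, h8⟩
    exact (inv_mul_eq_one.mp h9)
  choose f hf using hex
  have hfmul : ∀ t t', f (t * t') = f t * f t' := by
    intro t t'
    apply huniq (t * t') _ _ (hf _)
    exact L.mul_mem (hf t) (hf t')
  let F₀ : T →* P := MonoidHom.mk' f hfmul
  have hinj : Function.Injective F₀ := by
    rw [injective_iff_map_eq_one]
    intro t ht
    have ht' : f t = 1 := ht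
    have h1 := hf t
    rw [ht'] at h1
    have h2 : A t = AP 1 := hL2 h1
    rw [hP.A_one] at h2
    have h3 : ((t, 1) : T × P) ∈ E := hL3 _ h1 ⟨h2, hP.A_one⟩
    have h4 : BP 1 = ι t := h3.2.2
    rw [hP.B_one hq] at h4
    exact ι_inj t ((hA0 t).1 h2) h4.symm
  have hcardP : Nat.card P = 4 ^ 3 := hP.card hF
  have hbij : Function.Bijective F₀ := by
    refine (Nat.bijective_iff_injective_and_card F₀).2 ⟨hinj, ?_⟩
    rw [card, hcardP]
    norm_num
  exact ⟨MulEquiv.ofBijective F₀ hbij⟩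

end Cfsg.Agent.Lib.RankTwoAut.Fibre
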