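import Mathlib

/-!
# Abelian `2`-groups with a fixed-point-free automorphism of order three and `≤ 4` square roots of one
-/

set_option autoImplicit false

namespace Cfsg.Agent.Lib.RankTwoAut.Homo

variable {M : Type*} [Group M] [Finite M]

/-- Four distinct square roots of one fill up a set of at most four. -/
theorem four_fill (h4 : Nat.card {x : M // x * x = 1} ≤ 4) {a b c d : M}
    (ha : a * a = 1) (hb : b * b = 1) (hc : c * c = 1) (hd : d * d = 1)
    (hab : a ≠ b) (hac : a ≠ c) (had : a ≠ d) (hbc : b ≠ c) (hbd : b ≠ d) (hcd : c ≠ d)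
    (x : M) (hx : x * x = 1) : x = a ∨ x = b ∨ x = c ∨ x = d := by
  classical
  haveI : Fintype {x : M // x * x = 1} := Fintype.ofFinite _
  rw [Nat.card_eq_fintype_card] at h4
  by_contra hcon
  push Not at hcon
  obtain ⟨h1, h2, h3, h5⟩ := hcon
  let S : Finset {x : M // x * x = 1} := {⟨a, ha⟩, ⟨b, hb⟩, ⟨c, hc⟩, ⟨d, hd⟩, ⟨x, hx⟩}
  have hS : S.card = 5 := by
    simp only [S]
    rw [Finset.card_insert_of_notMem, Finset.card_insert_of_notMem, Finset.card_insert_of_notMem,
      Finset.card_insert_of_notMem, Finset.card_singleton]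
    · simp only [Finset.mem_singleton, Subtype.mk.injEq]; exact fun h => h5 h.symm
    · simp only [Finset.mem_insert, Finset.mem_singleton, Subtype.mk.injEq]
      rintro (h | h)
      · exact hcd h
      · exact h3 h.symm
    · simp only [Finset.mem_insert, Finset.mem_singleton, Subtype.mk.injEq]
      rintro (h | h | h)
      · exact hbc h
      · exact hbd h
      · exact h2 h.symm
    · simp only [Finset.mem_insert, Finset.mem_singleton, Subtype.mk.injEq]
      rintro (h | h | h | h)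
      · exact hab h
      · exact hac h
      · exact had h
      · exact h1 h.symm
  have := Finset.card_le_univ S
  omega

/-- The involution of `⟨u⟩` is unique. -/
theorem pow_eq_inv {u : M} {n : ℕ} (hn : 1 ≤ n) (hu : orderOf u = 2 ^ n) {s : ℕ}
    (h2 : u ^ s * u ^ s = 1) (h1 : u ^ s ≠ 1) : u ^ s = u ^ 2 ^ (n - 1) := by
  have e : (2 : ℕ) ^ n = 2 * 2 ^ (n - 1) := by
    rw [← pow_succ']; congr 1; omega
  have h3 : orderOf u ∣ 2 * s := by
    apply orderOf_dvd_of_pow_eq_one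
    rw [two_mul, pow_add]; exact h2
  rw [hu, e] at h3
  obtain ⟨t, rfl⟩ := Nat.dvd_of_mul_dvd_mul_left (by norm_num) h3
  have hsq : (u ^ 2 ^ (n - 1)) ^ 2 = 1 := by
    rw [← pow_mul, mul_comm, ← e, ← hu, pow_orderOf_eq_one]
  rw [pow_mul] at h1 ⊢
  rcases Nat.even_or_odd' t with ⟨k, rfl | rfl⟩
  · rw [pow_mul, hsq, one_pow] at h1
    exact absurd rfl h1
  · rw [pow_succ, pow_mul, hsq, one_pow, one_mul]

section Main

variable (hM : IsPGroup 2 M) (hcomm : ∀ a b : M, a * b = b * a) (α : MulAut M)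
  (hfix : ∀ x, α x = x → x = 1)

include hM hcomm hfix

/-- Independence of `u` and `αu`. -/
theorem indep {u : M} {n : ℕ} (hn : 1 ≤ n) (hu : orderOf u = 2 ^ n) {a b : ℕ}
    (h : u ^ a * (α u) ^ b = 1) : u ^ a = 1 ∧ (α u) ^ b = 1 := by
  have hαu : orderOf (α u) = 2 ^ n := by
    rw [MulEquiv.orderOf_eq]; exact hu
  suffices hg : u ^ a = 1 by
    refine ⟨hg, ?_⟩
    rwa [hg, one_mul] at h
  by_contra hg
  set g := u ^ a with hgdef
  obtain ⟨k, hk⟩ := (IsPGroup.iff_orderOf.mp hM) g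
  have hk0 : k ≠ 0 := by
    rintro rfl
    exact hg (orderOf_eq_one_iff.mp (by simpa using hk))
  set w := g ^ 2 ^ (k - 1) with hw
  have e : (2 : ℕ) ^ k = 2 ^ (k - 1) + 2 ^ (k - 1) := by
    rw [← two_mul, ← pow_succ']; congr 1; omega
  have hw2 : w * w = 1 := by
    rw [hw, ← pow_add, ← e, ← hk, pow_orderOf_eq_one]
  have hw1 : w ≠ 1 := by
    apply pow_ne_one_of_lt_orderOf (by positivity)
    rw [hk]
    exact Nat.pow_lt_pow_right (by norm_num) (by omega)
  have h1 : w = u ^ (a * 2 ^ (k - 1)) := by rw [hw, hgdef, pow_mul]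
  have h2 : w = (α u) ^ (b * 2 ^ (k - 1)) := by
    have h3 : (α u) ^ b = g⁻¹ := eq_inv_of_mul_eq_one_right h
    have h4 : w⁻¹ = w := inv_eq_of_mul_eq_one_left hw2
    rw [pow_mul, h3, inv_pow, ← hw, h4]
  have h5 : w = u ^ 2 ^ (n - 1) := by
    rw [h1] at hw1 hw2 ⊢
    exact pow_eq_inv hn hu hw2 hw1
  have h6 : w = (α u) ^ 2 ^ (n - 1) := by
    rw [h2] at hw1 hw2 ⊢
    exact pow_eq_inv hn hαu hw2 hw1
  have h7 : α w = w := by
    rw [h5, map_pow, ← h5, ← h6]
  exact hw1 (hfix _ h7)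

variable (h4 : Nat.card {x : M // x * x = 1} ≤ 4)
include h4

/-- An element of maximal order and its image generate. -/
theorem gen {u : M} (hmax : ∀ x : M, orderOf x ≤ orderOf u) (x : M) :
    ∃ i j : ℕ, x = u ^ i * (α u) ^ j := by
  obtain ⟨n, hu⟩ := (IsPGroup.iff_orderOf.mp hM) u
  rcases Nat.eq_zero_or_pos n with rfl | hn
  · have h1 : orderOf x = 1 := by
      have h2 := hmax x
      rw [hu, pow_zero] at h2
      have := orderOf_pos x
      omega
    exact ⟨0, 0, by simpa using orderOf_eq_one_iff.mp h1⟩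
  have hαu : orderOf (α u) = 2 ^ n := by
    rw [MulEquiv.orderOf_eq]; exact hu
  have hpow : ∀ t : M, t ^ 2 ^ n = 1 := by
    intro t
    obtain ⟨m, hm⟩ := (IsPGroup.iff_orderOf.mp hM) t
    have h1 := hmax t
    rw [hm, hu] at h1
    have h2 : m ≤ n := (Nat.pow_le_pow_iff_right (by norm_num)).1 h1
    apply orderOf_dvd_iff_pow_eq_one.mp
    rw [hm]
    exact pow_dvd_pow 2 h2
  set i₀ := u ^ 2 ^ (n - 1) with hi₀
  have hsum : (2 : ℕ) ^ n = 2 ^ (n - 1) + 2 ^ (n - 1) := by
    rw [← two_mul, ← pow_succ']; congr 1; omega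
  have hi2 : i₀ * i₀ = 1 := by
    rw [hi₀, ← pow_add, ← hsum, hpow]
  have hi1 : i₀ ≠ 1 := by
    apply pow_ne_one_of_lt_orderOf (by positivity)
    rw [hu]
    exact Nat.pow_lt_pow_right (by norm_num) (by omega)
  have hαi : α i₀ = (α u) ^ 2 ^ (n - 1) := by rw [hi₀, map_pow]
  have hαi2 : α i₀ * α i₀ = 1 := by rw [← map_mul, hi2, map_one]
  have hαi1 : α i₀ ≠ 1 := by
    intro h
    exact hi1 ((map_eq_one_iff α α.injective).mp h)
  have hne : i₀ ≠ α i₀ := fun h => hi1 (hfix _ h.symm)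
  have hprod2 : (i₀ * α i₀) * (i₀ * α i₀) = 1 := by
    calc (i₀ * α i₀) * (i₀ * α i₀) = i₀ * (α i₀ * i₀) * α i₀ := by group
      _ = i₀ * (i₀ * α i₀) * α i₀ := by rw [hcomm (α i₀) i₀]
      _ = (i₀ * i₀) * (α i₀ * α i₀) := by group
      _ = 1 := by rw [hi2, hαi2, one_mul]
  have hΩ : ∀ t : M, t * t = 1 → t = 1 ∨ t = i₀ ∨ t = α i₀ ∨ t = i₀ * α i₀ := by
    intro t ht
    refine four_fill h4 (mul_one 1) hi2 hαi2 hprod2 hi1.symm hαi1.symm ?_ hne ?_ ?_ t ht
    · intro h
      apply hne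
      have h1 : i₀ * α i₀ = 1 := h.symm
      calc i₀ = i₀ * (α i₀ * α i₀) := by rw [hαi2, mul_one]
        _ = (i₀ * α i₀) * α i₀ := by group
        _ = α i₀ := by rw [h1, one_mul]
    · intro h
      apply hαi1
      have h1 := h
      exact mul_left_cancel (a := i₀) (by rw [← h1, mul_one])
    · intro h
      apply hi1
      have h1 : α i₀ = i₀ * α i₀ := h
      exact mul_right_cancel (b := α i₀) (by rw [← h1, one_mul])
  -- the predicate
  let P : M → Prop := fun y => ∃ i j : ℕ, y = u ^ i * (α u) ^ j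
  have hPmul : ∀ y z, P y → P z → P (y * z) := by
    rintro _ _ ⟨i, j, rfl⟩ ⟨k, l, rfl⟩
    refine ⟨i + k, j + l, ?_⟩
    rw [pow_add, pow_add]
    calc u ^ i * (α u) ^ j * (u ^ k * (α u) ^ l) = u ^ i * ((α u) ^ j * u ^ k) * (α u) ^ l := by group
      _ = u ^ i * (u ^ k * (α u) ^ j) * (α u) ^ l := by rw [hcomm ((α u) ^ j)]
      _ = _ := by group
  have hP1 : P 1 := ⟨0, 0, by simp⟩
  have hPΩ : ∀ t : M, t * t = 1 → P t := by
    intro t ht
    rcases hΩ t ht with rfl | rfl | rfl | rfl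
    · exact hP1
    · exact ⟨2 ^ (n - 1), 0, by simp [hi₀]⟩
    · exact ⟨0, 2 ^ (n - 1), by simp [hαi]⟩
    · exact ⟨2 ^ (n - 1), 2 ^ (n - 1), by rw [hαi]⟩
  have hPsq : ∀ t, P (t * t) → P t := by
    rintro t ⟨a, b, hab⟩
    have e1 : (t * t) ^ 2 ^ (n - 1) = 1 := by
      rw [← pow_two, ← pow_mul, ← pow_succ', Nat.sub_add_cancel hn, hpow]
    rw [hab, (Commute.mul_pow (hcomm _ _) _), ← pow_mul, ← pow_mul] at e1
    obtain ⟨e2, e3⟩ := indep hM hcomm α hfix hn hu e1
    have e4 := orderOf_dvd_of_pow_eq_one e2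
    have e5 := orderOf_dvd_of_pow_eq_one e3
    rw [hu, hsum, ← two_mul, mul_comm] at e4
    rw [hαu, hsum, ← two_mul, mul_comm] at e5
    obtain ⟨a₁, rfl⟩ : 2 ∣ a := by
      rw [mul_comm] at e4
      exact Nat.dvd_of_mul_dvd_mul_right (pow_pos (by norm_num : 0 < 2) _) e4
    obtain ⟨b₁, rfl⟩ : 2 ∣ b := by
      rw [mul_comm] at e5
      exact Nat.dvd_of_mul_dvd_mul_right (pow_pos (by norm_num : 0 < 2) _) e5
    set e := u ^ a₁ * (α u) ^ b₁ with he
    have hee : e * e = t * t := by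
      rw [hab, he]
      calc u ^ a₁ * (α u) ^ b₁ * (u ^ a₁ * (α u) ^ b₁)
          = u ^ a₁ * ((α u) ^ b₁ * u ^ a₁) * (α u) ^ b₁ := by group
        _ = u ^ a₁ * (u ^ a₁ * (α u) ^ b₁) * (α u) ^ b₁ := by rw [hcomm ((α u) ^ b₁)]
        _ = _ := by
          rw [two_mul, two_mul, pow_add, pow_add]; group
    have h6 : (t * e⁻¹) * (t * e⁻¹) = 1 := by
      calc (t * e⁻¹) * (t * e⁻¹) = t * (e⁻¹ * t) * e⁻¹ := by group
        _ = t * (t * e⁻¹) * e⁻¹ := by rw [hcomm e⁻¹ t]
        _ = (t * t) * (e * e)⁻¹ := by group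
        _ = 1 := by rw [hee]; group
    have h7 : P (t * e⁻¹ * e) := hPmul _ _ (hPΩ _ h6) ⟨a₁, b₁, rfl⟩
    simpa using h7
  have hPk : ∀ k : ℕ, ∀ y : M, P (y ^ 2 ^ k) → P y := by
    intro k
    induction k with
    | zero => intro y hy; simpa using hy
    | succ k ih =>
      intro y hy
      apply ih
      apply hPsq
      rw [← pow_add, ← two_mul, ← pow_succ']
      exact hy
  obtain ⟨m, hm⟩ := (IsPGroup.iff_orderOf.mp hM) x
  apply hPk m
  rw [← hm, pow_orderOf_eq_one]
  exact hP1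

/-- The isomorphism type. -/
theorem exists_iso [Nontrivial M] : ∃ n : ℕ, 1 ≤ n ∧
    Nonempty (M ≃* Multiplicative (ZMod (2 ^ n) × ZMod (2 ^ n))) := by
  classical
  obtain ⟨u, hmax⟩ := Finite.exists_max (fun x : M => orderOf x)
  obtain ⟨n, hu⟩ := (IsPGroup.iff_orderOf.mp hM) u
  have hn : 1 ≤ n := by
    by_contra hn0
    have hn0' : n = 0 := by omega
    subst hn0'
    obtain ⟨x, hx⟩ := exists_ne (1 : M)
    have h1 := hmax x
    rw [hu, pow_zero] at h1
    have h2 := orderOf_pos x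
    have h3 : orderOf x = 1 := by omega
    exact hx (orderOf_eq_one_iff.mp h3)
  have hαu : orderOf (α u) = 2 ^ n := by
    rw [MulEquiv.orderOf_eq]; exact hu
  refine ⟨n, hn, ?_⟩
  set N := 2 ^ n with hN
  haveI : NeZero N := ⟨by positivity⟩
  have hval : ∀ (v : M), orderOf v = N → ∀ a b : ZMod N, v ^ (a + b).val = v ^ a.val * v ^ b.val := by
    intro v hv a b
    have h1 : v ^ ((a.val + b.val) % N) = v ^ (a.val + b.val) := by
      have := pow_mod_orderOf v (a.val + b.val)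
      rwa [hv] at this
    rw [ZMod.val_add, h1, pow_add]
  let f : Multiplicative (ZMod N × ZMod N) →* M :=
    { toFun := fun p => u ^ (Multiplicative.toAdd p).1.val * (α u) ^ (Multiplicative.toAdd p).2.val
      map_one' := by simp
      map_mul' := by
        intro p q
        simp only [toAdd_mul, Prod.fst_add, Prod.snd_add]
        rw [hval u hu, hval (α u) hαu]
        generalize u ^ (Multiplicative.toAdd p).1.val = a
        generalize u ^ (Multiplicative.toAdd q).1.val = b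
        generalize (α u) ^ (Multiplicative.toAdd p).2.val = c
        generalize (α u) ^ (Multiplicative.toAdd q).2.val = d
        calc a * b * (c * d) = a * (b * c) * d := by group
          _ = a * (c * b) * d := by rw [hcomm b c]
          _ = _ := by group }
  have hf : ∀ p, f p = u ^ (Multiplicative.toAdd p).1.val * (α u) ^ (Multiplicative.toAdd p).2.val :=
    fun p => rfl
  have hinj : Function.Injective f := by
    rw [injective_iff_map_eq_one]
    intro p hp
    rw [hf] at hp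
    obtain ⟨h1, h2⟩ := indep hM hcomm α hfix hn hu hp
    have h3 := orderOf_dvd_of_pow_eq_one h1
    have h5 := orderOf_dvd_of_pow_eq_one h2
    rw [hu] at h3
    rw [hαu] at h5
    have h6 : (Multiplicative.toAdd p).1 = 0 := by
      rw [← ZMod.val_eq_zero]
      exact Nat.eq_zero_of_dvd_of_lt h3 (ZMod.val_lt _)
    have h7 : (Multiplicative.toAdd p).2 = 0 := by
      rw [← ZMod.val_eq_zero]
      exact Nat.eq_zero_of_dvd_of_lt h5 (ZMod.val_lt _)
    have h8 : Multiplicative.toAdd p = 0 := Prod.ext h6 h7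
    exact Multiplicative.toAdd.injective h8
  have hsurj : Function.Surjective f := by
    intro x
    obtain ⟨i, j, rfl⟩ := gen hM hcomm α hfix h4 hmax x
    refine ⟨Multiplicative.ofAdd ((i : ZMod N), (j : ZMod N)), ?_⟩
    rw [hf]
    simp only [toAdd_ofAdd, ZMod.val_natCast]
    have h1 : u ^ (i % N) = u ^ i := by
      have := pow_mod_orderOf u i
      rwa [hu] at this
    have h2 : (α u) ^ (j % N) = (α u) ^ j := by
      have := pow_mod_orderOf (α u) j
      rwa [hαu] at this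
    rw [h1, h2]
  exact ⟨(MulEquiv.ofBijective f ⟨hinj, hsurj⟩).symm⟩

end Main

end Cfsg.Agent.Lib.RankTwoAut.Homo
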