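import Cfsg.Agent.Lib.RankTwoAut.Struct
import Cfsg.Agent.Lib.RankTwoAut.Fibre

/-!
# The field-valued coordinates on the nonabelian group
-/

set_option autoImplicit false
set_option linter.unusedSectionVars false
set_option linter.style.haveILetI false

namespace Cfsg.Agent.Lib.RankTwoAut.Model

open scoped commutatorElement
open Cfsg.Agent.Lib.RankTwoAut.Setup Cfsg.Agent.Lib.RankTwoAut.Fpf3
open Cfsg.Agent.Lib.RankTwoAut.Struct Cfsg.Agent.Lib.RankTwoAut.Fibre
open Cfsg.Agent.Lib.Classical.Herm.SzModel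

section FieldPart

variable {F : Type*} [Field F] [Fintype F] [CharP F 2]

theorem exists_e5 (hF : Fintype.card F = 4 ^ 2) : ∃ e : F, e ^ 5 = 1 ∧ e ≠ 1 := by
  classical
  haveI : Fact (Nat.Prime 5) := ⟨by norm_num⟩
  have hcard : Fintype.card Fˣ = 15 := by
    rw [Fintype.card_units, hF]; norm_num
  obtain ⟨u, hu⟩ := exists_prime_orderOf_dvd_card 5 (G := Fˣ) (by rw [hcard]; norm_num)
  refine ⟨(u : F), ?_, ?_⟩
  · have := pow_orderOf_eq_one u
    rw [hu] at this
    have h2 := congrArg Units.val this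
    simpa using h2
  · intro h
    have h1 : u = 1 := Units.ext h
    rw [h1, orderOf_one] at hu
    norm_num at hu

theorem e5_sum {e : F} (h5 : e ^ 5 = 1) (h1 : e ≠ 1) : 1 + e + e ^ 2 + e ^ 3 + e ^ 4 = 0 := by
  have h2 : (e - 1) * (1 + e + e ^ 2 + e ^ 3 + e ^ 4) = 0 := by
    linear_combination h5
  rcases mul_eq_zero.mp h2 with h | h
  · exact absurd (sub_eq_zero.mp h) h1
  · exact h

theorem e5_root {e : F} (h5 : e ^ 5 = 1) (h1 : e ≠ 1) :
    (e + e ^ 4) * (e + e ^ 4) + (e + e ^ 4) + 1 = 0 := by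
  have h2 : (2 : F) = 0 := CharTwo.two_eq_zero
  have h3 := e5_sum h5 h1
  linear_combination h3 + e ^ 3 * h5 + e ^ 5 * h2

theorem exists_root (hF : Fintype.card F = 4 ^ 2) : ∃ t : F, t * t + t + 1 = 0 := by
  obtain ⟨e, h5, h1⟩ := exists_e5 hF
  exact ⟨_, e5_root h5 h1⟩

theorem exists_e (hF : Fintype.card F = 4 ^ 2) {τ : F} (hτ : τ * τ + τ + 1 = 0) :
    ∃ e : F, e ^ 5 = 1 ∧ e + e ^ 4 = τ := by
  obtain ⟨e, h5, h1⟩ := exists_e5 hF
  have h2 : (2 : F) = 0 := CharTwo.two_eq_zero
  have hs := e5_root h5 h1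
  set s := e + e ^ 4 with hsdef
  have hprod : (s + τ) * (s + τ + 1) = 0 := by
    linear_combination hs + hτ + (s * τ - 1) * h2
  rcases mul_eq_zero.mp hprod with h | h
  · refine ⟨e, h5, ?_⟩
    rw [← hsdef]
    linear_combination h - τ * h2
  · refine ⟨e ^ 2, ?_, ?_⟩
    · rw [← pow_mul, mul_comm, pow_mul, h5, one_pow]
    · have h3 : s = τ + 1 := by linear_combination h - (τ + 1) * h2
      have h6 : (e ^ 2) + (e ^ 2) ^ 4 = s * s - 2 * e ^ 5 := by
        rw [hsdef]; ring
      rw [h6, h3]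
      linear_combination hτ - e ^ 5 * h2

end FieldPart

section Iota

variable {T F : Type*} [Group T] [Finite T] [Field F]

open _root_.Classical in
/-- The identification of the set of square roots of one with the field of four elements. -/
noncomputable def iota (α : MulAut T) (v₀ : T) (t : F) (x : T) : F :=
  if x = 1 then 0 else if x = v₀ then 1 else if x = α v₀ then t + 1 else t

variable {α : MulAut T} {v₀ : T} {t : F}

theorem iota_one : iota α v₀ t 1 = 0 := by simp [iota]

variable (hV : IsV α v₀)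
include hV

theorem iota_v : iota α v₀ t v₀ = 1 := by simp [iota, hV.ne_one]

theorem iota_av : iota α v₀ t (α v₀) = t + 1 := by
  simp [iota, hV.rot.ne_one, hV.ne1]

theorem iota_aav : iota α v₀ t (α (α v₀)) = t := by
  simp [iota, hV.rot.rot.ne_one, hV.ne2, hV.rot.ne1]

variable [CharP F 2] (ht : t * t + t + 1 = 0)
include ht

theorem iota_mul {u v : T} (hu : u * u = 1) (hv : v * v = 1) :
    iota α v₀ t (u * v) = iota α v₀ t u + iota α v₀ t v := by
  have h2 : (2 : F) = 0 := CharTwo.two_eq_zero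
  have e1 : v₀ * α v₀ = α (α v₀) := hV.mul_eq
  have e2 : α v₀ * α (α v₀) = v₀ := by
    have := hV.rot.mul_eq
    rwa [hV.cube] at this
  have e3 : α (α v₀) * v₀ = α v₀ := by
    have := hV.rot.rot.mul_eq
    rwa [hV.cube] at this
  have e4 : α v₀ * v₀ = α (α v₀) := by rw [hV.central (α v₀)]; exact e1
  have e5 : v₀ * α (α v₀) = α v₀ := by rw [← hV.central (α (α v₀))]; exact e3
  have e6 : α (α v₀) * α v₀ = v₀ := by rw [hV.rot.central (α (α v₀))]; exact e2
  have v1 := iota_v (t := t) hV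
  have v2 := iota_av (t := t) hV
  have v3 := iota_aav (t := t) hV
  have v0 := iota_one (α := α) (v₀ := v₀) (t := t)
  rcases hV.all u hu with rfl | rfl | rfl | rfl <;> rcases hV.all v hv with rfl | rfl | rfl | rfl
  · simp [v0]
  · simp [v0]
  · simp [v0]
  · simp [v0]
  · simp [v0]
  · rw [hV.sq, v0, v1]; linear_combination -h2
  · rw [e1, v1, v2, v3]; linear_combination -h2
  · rw [e5, v1, v2, v3]; ring
  · simp [v0]
  · rw [e4, v1, v2, v3]; linear_combination -h2
  · rw [hV.rot.sq, v0, v2]; linear_combination (-t - 1) * h2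
  · rw [e2, v1, v2, v3]; linear_combination -t * h2
  · simp [v0]
  · rw [e3, v1, v2, v3]
  · rw [e6, v1, v2, v3]; linear_combination -t * h2
  · rw [hV.rot.rot.sq, v0, v3]; linear_combination -t * h2

theorem iota_map {u : T} (hu : u * u = 1) :
    iota α v₀ t (α u) = (t + 1) * iota α v₀ t u := by
  have h2 : (2 : F) = 0 := CharTwo.two_eq_zero
  have v1 := iota_v (t := t) hV
  have v2 := iota_av (t := t) hV
  have v3 := iota_aav (t := t) hV
  have v0 := iota_one (α := α) (v₀ := v₀) (t := t)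
  rcases hV.all u hu with rfl | rfl | rfl | rfl
  · simp [v0]
  · rw [v1, v2, mul_one]
  · rw [v2, v3]; linear_combination -ht
  · rw [v3, hV.cube, v1]; linear_combination -ht + h2

theorem iota_inj {u : T} (hu : u * u = 1) (h0 : iota α v₀ t u = 0) : u = 1 := by
  have h2 : (2 : F) = 0 := CharTwo.two_eq_zero
  have v1 := iota_v (t := t) hV
  have v2 := iota_av (t := t) hV
  have v3 := iota_aav (t := t) hV
  rcases hV.all u hu with rfl | rfl | rfl | rfl
  · rfl
  · rw [v1] at h0; exact absurd h0 one_ne_zero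
  · exfalso
    rw [v2] at h0
    apply one_ne_zero (α := F)
    have h3 : t = -1 := by linear_combination h0
    rw [h3] at ht
    linear_combination ht
  · exfalso
    rw [v3] at h0
    apply one_ne_zero (α := F)
    rw [h0] at ht
    linear_combination ht

theorem iota_fix {u : T} (hu : u * u = 1) : (iota α v₀ t u) ^ 4 = iota α v₀ t u := by
  have h2 : (2 : F) = 0 := CharTwo.two_eq_zero
  have v1 := iota_v (t := t) hV
  have v2 := iota_av (t := t) hV
  have v3 := iota_aav (t := t) hV
  have v0 := iota_one (α := α) (v₀ := v₀) (t := t)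
  rcases hV.all u hu with rfl | rfl | rfl | rfl
  · rw [v0]; simp
  · rw [v1]; simp
  · rw [v2]
    linear_combination ((t + 1) ^ 2 - (t + 1)) * ht + ((t + 1) ^ 2 - (t + 1)) * (t + 1) * h2
  · rw [v3]
    linear_combination (t ^ 2 - t) * ht

/-- The value at an element other than one and the base point is a root of `X² + X + 1`. -/
theorem iota_root {c : T} (hc : c * c = 1) (h1 : c ≠ 1) (h0 : c ≠ v₀) :
    iota α v₀ t c * iota α v₀ t c + iota α v₀ t c + 1 = 0 := by
  have h2 : (2 : F) = 0 := CharTwo.two_eq_zero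
  have v2 := iota_av (t := t) hV
  have v3 := iota_aav (t := t) hV
  rcases hV.all c hc with rfl | rfl | rfl | rfl
  · exact absurd rfl h1
  · exact absurd rfl h0
  · rw [v2]; linear_combination ht + (t + 1) * h2
  · rw [v3]; exact ht

end Iota

section Main

variable {T P F : Type*} [Group T] [Finite T] [Group P] [Field F] [Fintype F] [CharP F 2]
  {α : MulAut T} {w₁ w₂ v₀ : T}

/-- An induction principle. -/
theorem gen_pred (hD : Data α w₁ w₂ v₀) (Q : T → Prop) (hone : Q 1)
    (hmul : ∀ x y, Q x → Q y → Q (x * y)) (hV : ∀ v, v * v = 1 → Q v)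
    (hα : ∀ x, Q x → Q (α x)) (h1 : Q w₁) (h2 : Q w₂) : ∀ x, Q x := by
  have hpow : ∀ (n : ℕ) (x : T), Q x → Q (x ^ n) := by
    intro n x hx
    induction n with
    | zero => simpa using hone
    | succ n ih => rw [pow_succ]; exact hmul _ _ ih hx
  let A : Subgroup T :=
    { carrier := {x | Q x}
      one_mem' := hone
      mul_mem' := fun hx hy => hmul _ _ hx hy
      inv_mem' := by
        intro x hx
        have h5 : x ^ (orderOf x - 1) * x = 1 := by
          rw [← pow_succ, Nat.sub_add_cancel (orderOf_pos x), pow_orderOf_eq_one]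
        have hinv : x⁻¹ = x ^ (orderOf x - 1) := inv_eq_of_mul_eq_one_left h5
        show Q x⁻¹
        rw [hinv]
        exact hpow _ _ hx }
  exact hD.gen A hV h1 (hα _ h1) (hα _ (hα _ h1)) h2 (hα _ h2) (hα _ (hα _ h2))

theorem iso (hF : Fintype.card F = 4 ^ 2) {AP BP : P → F} (hP : IsSz 4 AP BP)
    (hD : Data α w₁ w₂ v₀) : Nonempty (T ≃* P) := by
  classical
  obtain ⟨t, ht⟩ := exists_root hF
  have h2 : (2 : F) = 0 := CharTwo.two_eq_zero
  have hV := hD.hV
  have h3 := hD.h3
  have hfix := hD.hfix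
  have hc : ∀ p q g : T, g * ⁅p, q⁆ = ⁅p, q⁆ * g := comm_central h3 hfix
  have hL := comm_left h3 hfix
  have hR := comm_right h3 hfix
  have hcomm := hD.hcomm
  have hsq := hD.hsq
  set ι : T → F := iota α v₀ t with hι
  have ι1 : ι 1 = 0 := iota_one
  have ιmul : ∀ {u v : T}, u * u = 1 → v * v = 1 → ι (u * v) = ι u + ι v :=
    fun hu hv => iota_mul hV ht hu hv
  have ιmap : ∀ {u : T}, u * u = 1 → ι (α u) = (t + 1) * ι u := fun hu => iota_map hV ht hu
  have ιfix : ∀ {u : T}, u * u = 1 → (ι u) ^ 4 = ι u := fun hu => iota_fix hV ht hu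
  have hα2 : ∀ {u : T}, u * u = 1 → α u * α u = 1 := fun hu => hV.sq_map hu
  set c := ⁅w₁, w₂⁆ with hcdef
  set τ := ι c with hτdef
  have hτ : τ * τ + τ + 1 = 0 := iota_root hV ht (hcomm _ _) hD.c1 hD.c2
  obtain ⟨e, he5, heτ⟩ := exists_e hF hτ
  set σ := τ * τ with hσ
  have hστ : σ * τ = 1 := by
    rw [hσ]
    linear_combination (τ - 1) * hτ
  have hσ4 : σ ^ 4 = σ := by
    rw [hσ]
    linear_combination τ ^ 2 * (τ ^ 3 + 1) * (τ - 1) * hτ
  let a : T → F := fun x => σ * ι ⁅x, w₂⁆
  let b : T → F := fun x => σ * ι ⁅x, w₁⁆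
  have ha : ∀ x, a x = σ * ι ⁅x, w₂⁆ := fun x => rfl
  have hb : ∀ x, b x = σ * ι ⁅x, w₁⁆ := fun x => rfl
  have amul : ∀ x y, a (x * y) = a x + a y := by
    intro x y
    rw [ha, ha, ha, comm_mul_left hc, ιmul (hcomm _ _) (hcomm _ _)]
    ring
  have bmul : ∀ x y, b (x * y) = b x + b y := by
    intro x y
    rw [hb, hb, hb, comm_mul_left hc, ιmul (hcomm _ _) (hcomm _ _)]
    ring
  have hcen : ∀ v : T, v * v = 1 → ∀ w : T, ⁅v, w⁆ = 1 := fun v hv w =>
    commutatorElement_eq_one_iff_mul_comm.mpr (hV.central_of_sq hv w).symm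
  have aV : ∀ v, v * v = 1 → a v = 0 := by
    intro v hv
    rw [ha, hcen v hv, ι1, mul_zero]
  have bV : ∀ v, v * v = 1 → b v = 0 := by
    intro v hv
    rw [hb, hcen v hv, ι1, mul_zero]
  have ιαα : ∀ {u : T}, u * u = 1 → ι (α (α u)) = t * ι u := by
    intro u hu
    rw [ιmap (hα2 hu), ιmap hu]
    linear_combination ι u * ht
  have amap : ∀ x, a (α x) = t * a x := by
    intro x
    rw [ha, ha, hL, ιαα (hcomm _ _)]
    ring
  have bmap : ∀ x, b (α x) = t * b x := by
    intro x
    rw [hb, hb, hL, ιαα (hcomm _ _)]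
    ring
  have afix : ∀ x, (a x) ^ 4 = a x := by
    intro x
    rw [ha, mul_pow, hσ4, ιfix (hcomm _ _)]
  have bfix : ∀ x, (b x) ^ 4 = b x := by
    intro x
    rw [hb, mul_pow, hσ4, ιfix (hcomm _ _)]
  have hsw : ∀ x y : T, ι ⁅y, x⁆ = ι ⁅x, y⁆ := by
    intro x y
    rw [comm_swap x y, inv_eq_of_mul_eq_one_left (hcomm x y)]
  have ha1 : a w₁ = 1 := by rw [ha, ← hcdef, ← hτdef]; exact hστ
  have hb1 : b w₁ = 0 := by rw [hb, commutatorElement_self, ι1, mul_zero]
  have ha2 : a w₂ = 0 := by rw [ha, commutatorElement_self, ι1, mul_zero]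
  have hb2 : b w₂ = 1 := by rw [hb, hsw, ← hcdef, ← hτdef]; exact hστ
  -- the polar identity
  have polar : ∀ y x, ι ⁅y, x⁆ = (a x * b y + a y * b x) * τ := by
    apply gen_pred hD (fun y => ∀ x, ι ⁅y, x⁆ = (a x * b y + a y * b x) * τ)
    · intro x
      rw [commutatorElement_one_left, ι1, aV 1 (by simp), bV 1 (by simp)]
      ring
    · intro y y' hy hy' x
      rw [comm_mul_left hc, ιmul (hcomm _ _) (hcomm _ _), hy, hy', amul, bmul]
      ring
    · intro v hv x
      rw [hcen v hv, ι1, aV v hv, bV v hv]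
      ring
    · intro y hy x
      obtain ⟨x', rfl⟩ := α.surjective x
      rw [hL, hR, h3, ιmap (hcomm _ _), hy x', amap x', amap y, bmap x', bmap y]
      linear_combination (-((a x' * b y + a y * b x') * τ)) * ht
        + (t + 1) * ((a x' * b y + a y * b x') * τ) * h2
    · intro x
      rw [hsw, ha1, hb1, hb]
      linear_combination (-ι ⁅x, w₁⁆) * hστ
    · intro x
      rw [hsw, ha2, hb2, ha]
      linear_combination (-ι ⁅x, w₂⁆) * hστ
  -- the squares
  have sqform : ∀ x, ι (x * x) = a x * a x + b x * b x + a x * b x * τ := by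
    apply gen_pred hD (fun x => ι (x * x) = a x * a x + b x * b x + a x * b x * τ)
    · rw [mul_one, ι1, aV 1 (by simp), bV 1 (by simp)]
      ring
    · intro x y hx hy
      rw [sq_mul hc, ιmul (hV.mul_of_sq (hsq x) (hsq y)) (hcomm _ _),
        ιmul (hsq x) (hsq y), hx, hy, polar y x, amul, bmul]
      linear_combination (-(a x * a y + b x * b y)) * h2
    · intro v hv
      rw [hv, ι1, aV v hv, bV v hv]
      ring
    · intro x hx
      rw [← map_mul, ιmap (hsq x), hx, amap x, bmap x]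
      linear_combination (-(a x * a x + b x * b x + a x * b x * τ)) * ht
        + (t + 1) * (a x * a x + b x * b x + a x * b x * τ) * h2
    · rw [hD.sq1, ha1, hb1, hι, iota_v hV]
      ring
    · rw [hD.sq2, ha2, hb2, hι, iota_v hV]
      ring
  -- the coordinate
  let A : T → F := fun x => a x + b x * e
  have hA : ∀ x, A x = a x + b x * e := fun x => rfl
  have Amul : ∀ x y, A (x * y) = A x + A y := by
    intro x y
    rw [hA, hA, hA, amul, bmul]
    ring
  have A4 : ∀ x, (A x) ^ 4 = a x + b x * e ^ 4 := by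
    intro x
    rw [hA]
    linear_combination afix x + e ^ 4 * bfix x
      + (2 * (a x) ^ 3 * (b x * e) + 3 * (a x) ^ 2 * (b x * e) ^ 2 + 2 * (a x) * (b x * e) ^ 3) * h2
  have A5 : ∀ x, ι (x * x) = (A x) ^ 5 := by
    intro x
    rw [pow_succ, A4, sqform, hA]
    linear_combination (-(b x * b x)) * he5 - (a x * b x) * heτ
  have Acomm : ∀ x y, ι ⁅x, y⁆ = A y * (A x) ^ 4 + A x * (A y) ^ 4 := by
    intro x y
    rw [A4, A4, hA, hA, polar x y]
    linear_combination (-(a y * b x + a x * b y)) * heτ - (a x * a y + b x * b y * e ^ 5) * h2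
  have hA0 : ∀ x, A x = 0 ↔ x * x = 1 := by
    intro x
    constructor
    · intro h
      have h5 := A5 x
      rw [h, zero_pow (by norm_num)] at h5
      exact iota_inj hV ht (hsq x) h5
    · intro h
      rw [hA, aV x h, bV x h]
      ring
  exact fibre hF hP A ι Amul hA0 (fun u v hu hv => ιmul hu hv)
    (fun u hu h => iota_inj hV ht hu h) (fun u hu => ιfix hu) A5 Acomm hcomm hsq hD.card

end Main

end Cfsg.Agent.Lib.RankTwoAut.Model
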