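import Cfsg.Agent.Lib.RankTwoAut.Center
import Cfsg.Agent.Lib.RankTwoAut.Bound

/-!
# The nonabelian case: order `64`, generators
-/

set_option autoImplicit false
set_option linter.unusedSectionVars false
set_option linter.style.haveILetI false

namespace Cfsg.Agent.Lib.RankTwoAut.Struct

open scoped commutatorElement
open Cfsg.Agent.Lib.RankTwoAut.Setup Cfsg.Agent.Lib.RankTwoAut.Fpf3
open Cfsg.Agent.Lib.RankTwoAut.Center Cfsg.Agent.Lib.RankTwoAut.Bound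

variable {T : Type*} [Group T] [Finite T] {α : MulAut T} {z : T}

/-- The data describing a nonabelian group. -/
structure Data (α : MulAut T) (w₁ w₂ v₀ : T) : Prop where
  hV : IsV α v₀
  h3 : ∀ x, α (α (α x)) = x
  hfix : ∀ x, α x = x → x = 1
  sq1 : w₁ * w₁ = v₀
  sq2 : w₂ * w₂ = v₀
  c1 : ⁅w₁, w₂⁆ ≠ 1
  c2 : ⁅w₁, w₂⁆ ≠ v₀
  hsq : ∀ x : T, x * x * (x * x) = 1
  hcomm : ∀ x y : T, ⁅x, y⁆ * ⁅x, y⁆ = 1
  card : Nat.card T = 64
  gen : ∀ A : Subgroup T, (∀ v, v * v = 1 → v ∈ A) → w₁ ∈ A → α w₁ ∈ A → α (α w₁) ∈ A →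
    w₂ ∈ A → α w₂ ∈ A → α (α w₂) ∈ A → ∀ x, x ∈ A

theorem exists_data (hT : IsPGroup 2 T) (h3 : ∀ x, α (α (α x)) = x) (hfix : ∀ x, α x = x → x = 1)
    (hV : IsV α z) (hnon : ∃ a b : T, a * b ≠ b * a) :
    ∃ w₁ w₂ v₀ : T, Data α w₁ w₂ v₀ := by
  classical
  have hc : ∀ p q g : T, g * ⁅p, q⁆ = ⁅p, q⁆ * g := comm_central h3 hfix
  have hcen := fun {c : T} (hcc : ∀ g, g * c = c * g) => center_sq hT h3 hfix hV hnon hcc
  have hcomm2 : ∀ x y : T, ⁅x, y⁆ * ⁅x, y⁆ = 1 := fun x y => hcen (hc x y)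
  have hsqc : ∀ x g : T, g * (x * x) = (x * x) * g := by
    intro x g
    have h1 : ⁅x * x, g⁆ = 1 := by rw [comm_sq hc, hcomm2]
    exact (commutatorElement_eq_one_iff_mul_comm.mp h1).symm
  have hsq : ∀ x : T, x * x * (x * x) = 1 := fun x => hcen (hsqc x)
  have hlt := card_lt hV hsq hcomm2
  have hα : α ^ 3 ^ 1 = 1 := by
    ext x
    simp [pow_succ, h3]
  have hmod := card_mod3 hα hfix
  have hcases := card_cases hT hmod hlt
  have hL := comm_left h3 hfix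
  have hR := comm_right h3 hfix
  have hα1 : ∀ {x : T}, α x = 1 → x = 1 := fun h => (map_eq_one_iff α α.injective).mp h
  obtain ⟨a, b, hab⟩ := hnon
  have hc₀ : ⁅a, b⁆ ≠ 1 := fun h => hab (commutatorElement_eq_one_iff_mul_comm.mp h)
  have ha2 : a * a ≠ 1 := fun h => hab (hV.central_of_sq h b).symm
  have hb2 : b * b ≠ 1 := fun h => hab (hV.central_of_sq h a)
  have hVb := hV.of_sq hb2 (hsq b)
  obtain ⟨w₂, hw₂, hw₂c⟩ : ∃ w₂, w₂ * w₂ = a * a ∧ ⁅a, w₂⁆ ≠ 1 := by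
    rcases hVb.all _ (hsq a) with h | h | h | h
    · exact absurd h ha2
    · exact ⟨b, h.symm, hc₀⟩
    · refine ⟨α b, by rw [← map_mul]; exact h.symm, ?_⟩
      rw [hR]
      exact fun h => hc₀ (hα1 (hα1 h))
    · refine ⟨α (α b), by rw [← map_mul, ← map_mul]; exact h.symm, ?_⟩
      rw [hR, hR]
      exact fun h => hc₀ (hα1 (hα1 (hα1 (hα1 h))))
  set w₁ := a with hw₁
  set v₀ := w₁ * w₁ with hv₀
  set c := ⁅w₁, w₂⁆ with hcdef
  have hc2 : c * c = 1 := hcomm2 _ _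
  have hVv : IsV α v₀ := hV.of_sq ha2 (hsq w₁)
  have hVc : IsV α c := hV.of_sq hw₂c hc2
  have hswap : ⁅w₂, w₁⁆ = c := by
    rw [comm_swap w₁ w₂, inv_eq_of_mul_eq_one_left hc2]
  have hself1 : ⁅α w₁, w₁⁆ = 1 := by rw [hL, commutatorElement_self]; simp
  have hself2 : ⁅α w₂, w₂⁆ = 1 := by rw [hL, commutatorElement_self]; simp
  have hself3 : ⁅α (α w₁), w₁⁆ = 1 := by rw [hL, hself1]; simp
  have hself4 : ⁅α (α w₂), w₂⁆ = 1 := by rw [hL, hself2]; simp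
  -- the square of an explicit element
  have hne : c ≠ v₀ := by
    intro hcv
    set g := α w₁ * α (α w₂) with hg
    have e1 : ⁅α (α w₂), α w₁⁆ = c := by
      rw [hL, hL, hR, h3, h3, hswap]
    have h1 : g * g = 1 := by
      have e2 : α w₁ * α w₁ = α v₀ := by rw [← map_mul]
      have e3 : α (α w₂) * α (α w₂) = α (α v₀) := by rw [← map_mul, ← map_mul, hw₂]
      have e4 : α v₀ * α (α v₀) = v₀ := by
        have := hVv.rot.mul_eq
        rwa [hVv.cube] at this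
      rw [hg, sq_mul hc, e2, e3, e1, e4, hcv]
      exact hVv.sq
    have h2 : ⁅g, w₂⁆ = 1 := commutatorElement_eq_one_iff_mul_comm.mpr
      (hV.central_of_sq h1 w₂).symm
    rw [hg, comm_mul_left hc, hself4, mul_one, hL] at h2
    exact hw₂c (hα1 (hα1 h2))
  -- the homomorphism
  haveI : Fintype hV.sub := Fintype.ofFinite _
  let Θ : T →* hV.sub × hV.sub := MonoidHom.mk'
    (fun x => (⟨⁅x, w₂⁆, hcomm2 _ _⟩, ⟨⁅x, w₁⁆, hcomm2 _ _⟩)) (by
      intro x y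
      apply Prod.ext
      · exact Subtype.ext (comm_mul_left hc x y w₂)
      · exact Subtype.ext (comm_mul_left hc x y w₁))
  have hΘ1 : ∀ x, ((Θ x).1 : T) = ⁅x, w₂⁆ := fun x => rfl
  have hΘ2 : ∀ x, ((Θ x).2 : T) = ⁅x, w₁⁆ := fun x => rfl
  have hreach1 : ∀ p : T, p * p = 1 →
      ∃ e, (e = 1 ∨ e = w₁ ∨ e = α w₁ ∨ e = α (α w₁)) ∧ ⁅e, w₂⁆ = p ∧ ⁅e, w₁⁆ = 1 := by
    intro p hp
    rcases hVc.all p hp with h | h | h | h
    · exact ⟨1, Or.inl rfl, by rw [commutatorElement_one_left, h], commutatorElement_one_left _⟩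
    · exact ⟨w₁, Or.inr (Or.inl rfl), h.symm, commutatorElement_self _⟩
    · refine ⟨α (α w₁), Or.inr (Or.inr (Or.inr rfl)), ?_, hself3⟩
      rw [h, hL, hL, h3]
    · refine ⟨α w₁, Or.inr (Or.inr (Or.inl rfl)), ?_, hself1⟩
      rw [h, hL]
  have hreach2 : ∀ p : T, p * p = 1 →
      ∃ e, (e = 1 ∨ e = w₂ ∨ e = α w₂ ∨ e = α (α w₂)) ∧ ⁅e, w₁⁆ = p ∧ ⁅e, w₂⁆ = 1 := by
    intro p hp
    rcases hVc.all p hp with h | h | h | h
    · exact ⟨1, Or.inl rfl, by rw [commutatorElement_one_left, h], commutatorElement_one_left _⟩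
    · exact ⟨w₂, Or.inr (Or.inl rfl), by rw [hswap, h], commutatorElement_self _⟩
    · refine ⟨α (α w₂), Or.inr (Or.inr (Or.inr rfl)), ?_, hself4⟩
      rw [h, hL, hL, hswap, h3]
    · refine ⟨α w₂, Or.inr (Or.inr (Or.inl rfl)), ?_, hself2⟩
      rw [h, hL, hswap]
  have hsurj : Function.Surjective Θ := by
    rintro ⟨⟨p, hp⟩, ⟨q, hq⟩⟩
    obtain ⟨e₁, -, h1, h2⟩ := hreach1 p hp
    obtain ⟨e₂, -, h5, h6⟩ := hreach2 q hq
    refine ⟨e₁ * e₂, ?_⟩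
    apply Prod.ext
    · apply Subtype.ext
      show ⁅e₁ * e₂, w₂⁆ = p
      rw [comm_mul_left hc, h1, h6, mul_one]
    · apply Subtype.ext
      show ⁅e₁ * e₂, w₁⁆ = q
      rw [comm_mul_left hc, h2, h5, one_mul]
  have hker := Subgroup.card_mul_index Θ.ker
  have hindex : Θ.ker.index = 16 := by
    rw [Subgroup.index_ker, MonoidHom.range_eq_top.mpr hsurj, Subgroup.card_top, Nat.card_prod,
      hV.card_sub]
  rw [hindex] at hker
  have hle : hV.sub ≤ Θ.ker := by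
    intro v hv
    rw [MonoidHom.mem_ker]
    have hv' : v * v = 1 := hv
    have e1 : ∀ w : T, ⁅v, w⁆ = 1 := fun w =>
      commutatorElement_eq_one_iff_mul_comm.mpr (hV.central_of_sq hv' w).symm
    apply Prod.ext
    · exact Subtype.ext (e1 w₂)
    · exact Subtype.ext (e1 w₁)
  have hk4 : 4 ≤ Nat.card Θ.ker := by
    have := Subgroup.card_le_of_le hle
    rwa [hV.card_sub] at this
  have hcard : Nat.card T = 64 := by
    rcases hcases with h | h | h | h <;> omega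
  have hkereq : Θ.ker = hV.sub := by
    symm
    apply Subgroup.eq_of_le_of_card_ge hle
    rw [hV.card_sub]
    omega
  refine ⟨w₁, w₂, v₀, hVv, h3, hfix, rfl, hw₂, hw₂c, hne, hsq, hcomm2, hcard, ?_⟩
  intro A hA1 hA2 hA3 hA4 hA5 hA6 hA7 x
  obtain ⟨e₁, he₁, h1, h2⟩ := hreach1 ⁅x, w₂⁆ (hcomm2 _ _)
  obtain ⟨e₂, he₂, h5, h6⟩ := hreach2 ⁅x, w₁⁆ (hcomm2 _ _)
  have hy : x * (e₁ * e₂)⁻¹ ∈ Θ.ker := by
    rw [MonoidHom.mem_ker, map_mul, map_inv, mul_inv_eq_one]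
    apply Prod.ext
    · apply Subtype.ext
      show ⁅x, w₂⁆ = ⁅e₁ * e₂, w₂⁆
      rw [comm_mul_left hc, h1, h6, mul_one]
    · apply Subtype.ext
      show ⁅x, w₁⁆ = ⁅e₁ * e₂, w₁⁆
      rw [comm_mul_left hc, h2, h5, one_mul]
  rw [hkereq] at hy
  have hy' : (x * (e₁ * e₂)⁻¹) * (x * (e₁ * e₂)⁻¹) = 1 := hy
  have h7 := hA1 _ hy'
  have h8 : e₁ ∈ A := by
    rcases he₁ with h | h | h | h <;> rw [h]
    · exact A.one_mem
    · exact hA2
    · exact hA3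
    · exact hA4
  have h9 : e₂ ∈ A := by
    rcases he₂ with h | h | h | h <;> rw [h]
    · exact A.one_mem
    · exact hA5
    · exact hA6
    · exact hA7
  have h10 := A.mul_mem h7 (A.mul_mem h8 h9)
  rwa [inv_mul_cancel_right] at h10

end Cfsg.Agent.Lib.RankTwoAut.Struct
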